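import Cfsg.Agent.H225.PPow.TwoAbs
import Cfsg.Agent.H225.PPow.TwoCard

/-!
# Subgroups of 2-power index of the simply laced Chevalley groups over the field with two elements (helper225)
-/

set_option autoImplicit false
set_option linter.unusedSectionVars false

namespace Cfsg.Agent.H225.PPow.Two

open CoxeterSystem Subgroup Cfsg Cfsg.Lie Cfsg.Lie.ChevalleyDatum
open Cfsg.Agent.ChevalleyStructure Cfsg.Agent.ChevalleyStructure.Elts Cfsg.Agent.ChevalleyStructure.CoxeterGeom
  Cfsg.Agent.ChevalleyStructure.CoxeterGeomTypes Cfsg.Agent.ChevalleyStructure.NPerm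
  Cfsg.Agent.ChevalleyStructure.RootVec Cfsg.Agent.ChevalleyStructure.RootVecTab
open Cfsg.Agent.Tits.Roots Cfsg.Agent.Tits.Core Cfsg.Agent.Tits.RootComb Cfsg.Agent.Nodes.Comb
  Cfsg.Agent.Nodes.Reps Cfsg.Agent.Nodes.BNOf Cfsg.Agent.Nodes.StabComb Cfsg.Agent.Nodes.Bruhat
  Cfsg.Agent.Nodes.LeviDec Cfsg.Agent.Nodes.NormalForm Cfsg.Agent.Nodes.RGDChev Cfsg.Agent.Nodes.OppDec
open Cfsg.Agent.KFacts.RgdChevCoord Cfsg.Agent.H225.PPow Cfsg.Agent.BpExc.TorChev
open Cfsg.Agent.KFacts.SLRow.Def

universe u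

/-- adjacency -/
def adj (D : ChevalleyDatum) (i j : ℕ) : Bool := cart D i (D.simple j) == 7

/-- the check of the commutators with the simple root elements -/
def chk1 (D : ChevalleyDatum) (l : ℕ) : Bool :=
  (List.range l).all fun j => (List.range D.nroots).all fun r =>
    !decide (D.neg r < r) || r == D.simple j ||
    (decide (D.neg (D.reflectRoot j r) < D.reflectRoot j r) &&
    match D.commTerms r (D.simple j) with
    | [] => (List.range l).all fun i => !(r == D.simple i && adj D i j)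
    | [(m, c, 1, 1)] => c.natAbs == 1 && (D.commTerms m (D.simple j)).isEmpty && decide (D.neg m < m) &&
        decide (m < D.nroots) && m != D.simple j && decide (D.neg (D.reflectRoot j m) < D.reflectRoot j m) &&
        (List.range l).all fun i => (D.reflectRoot j m == D.simple i) == (r == D.simple i && adj D i j)
    | _ => false)

/-- the nonsimple root elements are commutators -/
def chk2 (D : ChevalleyDatum) (l : ℕ) : Bool :=
  (List.range D.nroots).all fun r => !decide (D.neg r < r) || ((List.range l).any fun i => r == D.simple i) ||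
    (List.range l).any fun j => decide (D.neg (D.reflectRoot j r) < D.reflectRoot j r) &&
      D.reflectRoot j r != D.simple j &&
      (match D.commTerms (D.reflectRoot j r) (D.simple j) with
      | [(m, c, 1, 1)] => m == r && c.natAbs == 1
      | _ => false)

section Gen

variable {D : ChevalleyDatum} {l : ℕ} {M : CoxeterMatrix (Fin l)} (hp : IsType D l M) {K : Type u} [Field K]
  [Finite K] (hK : Nat.card K = 2) {W : Type*} [Group W] [Finite W] (cs : CoxeterSystem M W)

include hK in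
theorem zero_or_one (t : K) : t = 0 ∨ t = 1 := by
  classical
  have : Fintype K := Fintype.ofFinite K
  by_contra hcon
  push Not at hcon
  have h1 : ({0, 1, t} : Finset K).card ≤ Fintype.card K := Finset.card_le_univ _
  rw [← Nat.card_eq_fintype_card, hK, Finset.card_insert_of_notMem (by simp [hcon.1.symm]),
    Finset.card_insert_of_notMem (by simp [hcon.2.symm]), Finset.card_singleton] at h1
  omega

include hK in
theorem charTwo : CharP K 2 := by
  have : Fintype K := Fintype.ofFinite K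
  obtain ⟨p, hp⟩ := CharP.exists K
  obtain ⟨n, hn, e⟩ := FiniteField.card K p
  rw [← Nat.card_eq_fintype_card, hK] at e
  have h1 : p ∣ 2 := by rw [e]; exact dvd_pow_self _ n.pos.ne'
  have h2 : p = 2 := (Nat.prime_dvd_prime_iff_eq hn Nat.prime_two).1 h1
  rw [← h2]; exact hp

include hp hK in
theorem TT_bot : TT D K = ⊥ := by
  rw [eq_bot_iff]
  refine (TT_le hp).trans ?_
  rw [closure_le]
  rintro g ⟨j, c, hc0, rfl⟩
  rcases zero_or_one hK c with rfl | rfl
  · exact absurd rfl hc0
  · have : CharP K 2 := charTwo hK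
    have e1 : (-1 : K) = 1 := CharTwo.neg_eq 1
    have h1 : nG hp.inList (D.simple j) (1 : K) * nG hp.inList (D.simple j) (-1 : K) = 1 := by
      rw [nG_def, nG_def]
      have e2 : -(-1 : K)⁻¹ = 1 := by simp
      have e3 : -(1 : K)⁻¹ = -1 := by simp
      rw [e2, e3]
      have h2 : ∀ (r : ℕ) (t : K), xG hp.inList r (-t) = (xG hp.inList r t)⁻¹ := fun r t => by
        rw [xG_inv]
      rw [h2, h2]
      group
    change hc hp j (1 : K) = 1
    apply Subtype.ext
    change hG hp.inList (D.simple j) (1 : K) = 1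
    rw [hG_def]
    exact h1

include hK in
theorem mem_XX {r : ℕ} (hr : r < D.nroots) {u : ↥(D.group K)} (hu : u ∈ XX D l K (vec D l r)) :
    u = 1 ∨ u = ex hp r 1 := by
  obtain ⟨t, rfl⟩ := (mem_XX_vec hp hr).1 hu
  rcases zero_or_one hK t with rfl | rfl
  · left; exact ex_zero hp r
  · right; rfl

/-- the positive part -/
abbrev UU : Subgroup ↥(D.group K) := RGD.Sup (XX D l K) (RGD.Pos cs hp.isCartan)

/-- the radical of the minimal parabolic -/
abbrev QQ (j : Fin l) : Subgroup ↥(D.group K) := RGD.Sup (XX D l K) (RGD.PosNe cs hp.isCartan j)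

open Classical in
/-- the coordinate functions -/
noncomputable def e (j : Fin l) (u : ↥(D.group K)) : ZMod 2 := if u ∈ QQ hp (K := K) cs j then 0 else 1

theorem e_zero_iff {j : Fin l} {u : ↥(D.group K)} : e hp cs j u = 0 ↔ u ∈ QQ hp (K := K) cs j := by
  unfold e
  by_cases h : u ∈ QQ hp (K := K) cs j
  · simp [h]
  · simp [h]

theorem QQ_le (j : Fin l) : QQ hp (K := K) cs j ≤ UU hp cs := RGD.Sup_mono fun x hx => ⟨hx.1, hx.2.1⟩

variable [CharP K 2]

theorem UU_le_normalizer (j : Fin l) : UU hp (K := K) cs ≤ normalizer (QQ hp (K := K) cs j : Set ↥(D.group K)) := by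
  have : Fact (Nat.Prime 2) := ⟨Nat.prime_two⟩
  have R := rgd (K := K) hp cs 2
  change RGD.Sup (XX D l K) (RGD.Pos cs hp.isCartan) ≤ _
  rw [R.Upos_eq j]
  exact sup_le (R.X_le_normalizer_V j) le_normalizer

theorem UQ (j : Fin l) : ∀ u ∈ UU hp (K := K) cs, ∀ a ∈ QQ hp (K := K) cs j, u * a * u⁻¹ ∈ QQ hp (K := K) cs j :=
  fun _ hu _ ha => (mem_normalizer_iff.1 (UU_le_normalizer hp cs j hu) _).1 ha

theorem nc_normalizer (j : Fin l) : nc hp K j ∈ normalizer (QQ hp (K := K) cs j : Set ↥(D.group K)) := by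
  have : Fact (Nat.Prime 2) := ⟨Nat.prime_two⟩
  have R := rgd (K := K) hp cs 2
  exact mem_normalizer_iff_cj.2 (R.cj_n_V j)

theorem ex_mem_UU {r : ℕ} (hr : r < D.nroots) (hpos : D.neg r < r) (t : K) : ex hp r t ∈ UU hp (K := K) cs := by
  have h1 : vec D l r ∈ RGD.Pos cs hp.isCartan := ⟨isRoot_vec hp cs hr, (Card.nonneg_iff hp hr).2 hpos⟩
  exact RGD.le_Sup (X := XX D l K) h1 ((mem_XX_vec hp hr).2 ⟨t, rfl⟩)

theorem ex_mem_QQ {r : ℕ} (hr : r < D.nroots) (hpos : D.neg r < r) {j : Fin l} (hj : r ≠ D.simple j) (t : K) :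
    ex hp r t ∈ QQ hp (K := K) cs j := by
  have h1 : vec D l r ∈ RGD.PosNe cs hp.isCartan j := by
    refine ⟨isRoot_vec hp cs hr, (Card.nonneg_iff hp hr).2 hpos, fun h2 => hj ?_⟩
    rw [← vec_simple hp j] at h2
    exact vec_inj hp hr (RootVec.simple_lt hp.checked (lt_rank hp j)) h2
  exact RGD.le_Sup (X := XX D l K) h1 ((mem_XX_vec hp hr).2 ⟨t, rfl⟩)

include hp in
theorem pos_simple (j : Fin l) : D.neg (D.simple j) < D.simple j := by
  rw [← Card.nonneg_iff hp (RootVec.simple_lt hp.checked (lt_rank hp j)), vec_simple hp]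
  exact sr_nonneg j

theorem simple_notMem (j : Fin l) : ex hp (D.simple j) (1 : K) ∉ QQ hp (K := K) cs j := by
  have : Fact (Nat.Prime 2) := ⟨Nat.prime_two⟩
  have R := rgd (K := K) hp cs 2
  have hj := RootVec.simple_lt hp.checked (lt_rank hp j)
  intro h1
  have h2 : ex hp (D.simple j) (1 : K) ∈ XX D l K (sr j) := by
    rw [← vec_simple hp j]
    exact (mem_XX_vec hp hj).2 ⟨1, rfl⟩
  exact ex_ne_one hp hj one_ne_zero (eq_one_of_mem_PosNe R h2 h1)

theorem e_simple (j : Fin l) : e hp cs j (ex hp (D.simple j) (1 : K)) = 1 := by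
  unfold e
  rw [if_neg (simple_notMem hp cs j)]

include hp in
theorem simple_inj {i j : Fin l} (h : D.simple i = D.simple j) : i = j := by
  have h1 : (sr i : Fin l → ℤ) = sr j := by rw [← vec_simple hp i, ← vec_simple hp j, h]
  by_contra hne
  have h2 := congrFun h1 i
  rw [sr_self, sr_ne hne] at h2
  omega

open Classical in
/-- the values on the root elements -/
theorem e_ex {r : ℕ} (hr : r < D.nroots) (hpos : D.neg r < r) (j : Fin l) :
    e hp cs j (ex hp r (1 : K)) = if r = D.simple j then 1 else 0 := by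
  by_cases h : r = D.simple j
  · rw [if_pos h, h, e_simple]
  · rw [if_neg h]
    exact (e_zero_iff hp cs).2 (ex_mem_QQ hp cs hr hpos h 1)

include hK in
/-- the decomposition of `U` -/
theorem dec {u : ↥(D.group K)} (hu : u ∈ UU hp (K := K) cs) (j : Fin l) :
    u ∈ QQ hp (K := K) cs j ∨ ∃ q ∈ QQ hp (K := K) cs j, u = ex hp (D.simple j) 1 * q := by
  have : Fact (Nat.Prime 2) := ⟨Nat.prime_two⟩
  have R := rgd (K := K) hp cs 2
  change u ∈ RGD.Sup (XX D l K) (RGD.Pos cs hp.isCartan) at hu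
  rw [R.Upos_eq j, ← SetLike.mem_coe, Subgroup.coe_mul_of_left_le_normalizer_right _ _ (R.X_le_normalizer_V j),
    Set.mem_mul] at hu
  obtain ⟨x, hx, q, hq, rfl⟩ := hu
  have hx' : x ∈ XX D l K (sr j) := hx
  rw [← vec_simple hp j] at hx'
  rcases mem_XX hp hK (RootVec.simple_lt hp.checked (lt_rank hp j)) hx' with rfl | rfl
  · left
    change 1 * q ∈ _
    rw [one_mul]; exact hq
  · right
    exact ⟨q, hq, rfl⟩

theorem ex_sq (r : ℕ) : ex hp r (1 : K) * ex hp r 1 = 1 := by
  rw [← ex_add, CharTwo.add_self_eq_zero, ex_zero]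

include hK in
theorem add_e (j : Fin l) : Add (e hp cs j) (UU hp (K := K) cs) := by
  intro a ha b hb
  have hx := simple_notMem hp (K := K) cs j
  have hxU : ex hp (D.simple j) (1 : K) ∈ UU hp (K := K) cs :=
    ex_mem_UU hp cs (RootVec.simple_lt hp.checked (lt_rank hp j)) (pos_simple hp j) 1
  set x := ex hp (D.simple j) (1 : K) with hxdef
  have hxx : x * x = 1 := ex_sq hp _
  have hQ := UQ hp (K := K) cs j
  have val0 : ∀ u ∈ QQ hp (K := K) cs j, e hp cs j u = 0 := fun u hu => (e_zero_iff hp cs).2 hu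
  have val1 : ∀ q ∈ QQ hp (K := K) cs j, e hp cs j (x * q) = 1 := by
    intro q hq
    unfold e
    rw [if_neg]
    intro h1
    apply hx
    have := mul_mem h1 (inv_mem hq)
    rwa [mul_inv_cancel_right] at this
  rcases dec hp hK cs ha j with h1 | ⟨q, hq, rfl⟩ <;> rcases dec hp hK cs hb j with h2 | ⟨r, hr, rfl⟩
  · rw [val0 _ h1, val0 _ h2, val0 _ (mul_mem h1 h2), add_zero]
  · have e1 : a * (x * r) = x * (x⁻¹ * a * x⁻¹⁻¹ * r) := by group
    rw [e1, val1 _ (mul_mem (hQ _ (inv_mem hxU) _ h1) hr), val0 _ h1, val1 _ hr, zero_add]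
  · rw [mul_assoc, val1 _ (mul_mem hq h2), val1 _ hq, val0 _ h2, add_zero]
  · have e1 : x * q * (x * r) = (x * q * x⁻¹) * (x * x) * r := by group
    rw [e1, hxx, mul_one, val0 _ (mul_mem (hQ _ hxU _ hq) hr), val1 _ hq, val1 _ hr]
    exact (CharTwo.add_self_eq_zero (1 : ZMod 2)).symm

include hK in
/-- conjugation by `n_j` -/
theorem nc_conj (j : Fin l) {r : ℕ} (hr : r < D.nroots) :
    nc hp K j * ex hp r 1 * (nc hp K j)⁻¹ = ex hp (D.reflectRoot j r) 1 := by
  obtain ⟨c, hc, h1⟩ := nact hp (K := K) (i := j) hr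
  have h2 := h1 1
  rw [xc_eq hp K hr, xc_eq hp K (reflectRoot_lt hp.inList (lt_rank hp j) hr)] at h2
  rcases zero_or_one hK c with rfl | rfl
  · exact absurd rfl hc
  · rw [h2, one_mul]

/-- the commutator with a simple root element -/
theorem comm_simple {j : Fin l} {r m : ℕ} {c : ℤ} (hr : r < D.nroots) (hpos : D.neg r < r) (hne : r ≠ D.simple j)
    (hc : D.commTerms r (D.simple j) = [(m, c, 1, 1)]) (hc1 : c.natAbs = 1) :
    ex hp (D.simple j) (1 : K) * ex hp r 1 = ex hp r 1 * ex hp (D.simple j) 1 * ex hp m 1 := by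
  have hj := RootVec.simple_lt hp.checked (lt_rank hp j)
  have h1 := ex_comm hp (K := K) hr hj (Ne.symm hne) (by
    intro h2
    have h3 := pos_simple hp j
    rw [h2, RootVec.neg_neg hp.checked hr] at h3
    omega) 1 1
  rw [hc] at h1
  simp only [List.map_cons, List.map_nil, List.prod_cons, List.prod_nil, mul_one, pow_one] at h1
  have h2 : (c : K) * -1 = 1 := by
    rcases Int.natAbs_eq_iff.1 hc1 with rfl | rfl
    · rw [CharTwo.neg_eq]; push_cast; ring
    · push_cast; ring
  rw [h2] at h1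
  exact h1

theorem comm_simple_nil {j : Fin l} {r : ℕ} (hr : r < D.nroots) (hpos : D.neg r < r) (hne : r ≠ D.simple j)
    (hc : D.commTerms r (D.simple j) = []) :
    ex hp (D.simple j) (1 : K) * ex hp r 1 = ex hp r 1 * ex hp (D.simple j) 1 := by
  have hj := RootVec.simple_lt hp.checked (lt_rank hp j)
  have h1 := ex_comm hp (K := K) hr hj (Ne.symm hne) (by
    intro h2
    have h3 := pos_simple hp j
    rw [h2, RootVec.neg_neg hp.checked hr] at h3
    omega) 1 1
  rwa [hc, List.map_nil, List.prod_nil, mul_one] at h1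

include hK in
/-- **The identity.** -/
theorem ident (h1 : chk1 D l = true) (i j : Fin l) : ∀ v ∈ QQ hp (K := K) cs j,
    e hp cs i ((nc hp K j * ex hp (D.simple j) 1) * v * (nc hp K j * ex hp (D.simple j) 1)⁻¹) +
      e hp cs i (nc hp K j * v * (nc hp K j)⁻¹) + (if adj D i j then e hp cs i v else 0) = 0 := by
  have hQ := UQ hp (K := K) cs j
  have hj := RootVec.simple_lt hp.checked (lt_rank hp j)
  have hxU : ex hp (D.simple j) (1 : K) ∈ UU hp (K := K) cs := ex_mem_UU hp cs hj (pos_simple hp j) 1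
  have hnN := nc_normalizer hp (K := K) cs j
  have hxN := UU_le_normalizer hp (K := K) cs j hxU
  have hA1 : Add (fun u => e hp cs i ((nc hp K j * ex hp (D.simple j) 1) * u *
      (nc hp K j * ex hp (D.simple j) 1)⁻¹)) (QQ hp (K := K) cs j) :=
    (add_e hp hK cs i).comp fun a ha => QQ_le hp cs j ((mem_normalizer_iff.1 (mul_mem hnN hxN) a).1 ha)
  have hA2 : Add (fun u => e hp cs i (nc hp K j * u * (nc hp K j)⁻¹)) (QQ hp (K := K) cs j) :=
    (add_e hp hK cs i).comp fun a ha => QQ_le hp cs j ((mem_normalizer_iff.1 hnN a).1 ha)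
  have hA3 : Add (fun u => if adj D i j then e hp cs i u else (0 : ZMod 2)) (QQ hp (K := K) cs j) := by
    by_cases h : adj D i j = true
    · simp only [h, if_true]
      exact (add_e hp hK cs i).mono (QQ_le hp cs j)
    · simp only [h]
      intro a _ b _
      simp
  have hA := (hA1.add hA2).add hA3
  refine hA.zero_of_gen fun x hx u hu => ?_
  obtain ⟨hx, h0, hxj⟩ := hx
  obtain ⟨r, hr, rfl⟩ := (isRoot_iff hp cs x).1 hx
  rcases mem_XX hp hK hr hu with rfl | rfl
  · exact hA.one
  have hpos : D.neg r < r := (Card.nonneg_iff hp hr).1 h0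
  have hrj : r ≠ D.simple j := by
    rintro rfl
    exact hxj (vec_simple hp j)
  have h2 := List.all_eq_true.1 (List.all_eq_true.1 h1 j (List.mem_range.2 j.2)) r (List.mem_range.2 hr)
  have hb1 : (!decide (D.neg r < r)) = false := by simp [hpos]
  have hb2 : (r == D.simple j) = false := by simp [hrj]
  rw [hb1, hb2, Bool.false_or, Bool.false_or, Bool.and_eq_true, decide_eq_true_eq] at h2
  obtain ⟨hpr, h3⟩ := h2
  have hlr := reflectRoot_lt hp.inList (lt_rank hp j) hr
  have econj : ∀ y : ↥(D.group K), (nc hp K j * ex hp (D.simple j) 1) * y * (nc hp K j * ex hp (D.simple j) 1)⁻¹ =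
      nc hp K j * (ex hp (D.simple j) 1 * y * (ex hp (D.simple j) 1)⁻¹) * (nc hp K j)⁻¹ := fun y => by group
  show e hp cs i ((nc hp K j * ex hp (D.simple j) 1) * ex hp r 1 * (nc hp K j * ex hp (D.simple j) 1)⁻¹) +
      e hp cs i (nc hp K j * ex hp r 1 * (nc hp K j)⁻¹) + (if adj D i j then e hp cs i (ex hp r 1) else 0) = 0
  rw [econj]
  have z2 : ∀ x : ZMod 2, x + x = 0 := CharTwo.add_self_eq_zero
  split at h3
  · rename_i hct
    have e1 : ex hp (D.simple j) (1 : K) * ex hp r 1 * (ex hp (D.simple j) 1)⁻¹ = ex hp r 1 := by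
      rw [comm_simple_nil hp hr hpos hrj hct, mul_inv_cancel_right]
    rw [e1, z2, zero_add]
    have h4 := List.all_eq_true.1 h3 i (List.mem_range.2 i.2)
    by_cases h : adj D i j = true
    · rw [if_pos h, e_ex hp cs hr hpos, if_neg]
      rintro h5
      simp [h5, h] at h4
    · rw [if_neg h]
  · rename_i m c hct
    simp only [Bool.and_eq_true, beq_iff_eq, List.isEmpty_iff, decide_eq_true_eq, bne_iff_ne, ne_eq] at h3
    obtain ⟨⟨⟨⟨⟨⟨hc1, hm0⟩, hpm⟩, hlm⟩, hmj⟩, hprm⟩, h4⟩ := h3
    have e2 : ex hp (D.simple j) (1 : K) * ex hp m 1 = ex hp m 1 * ex hp (D.simple j) 1 :=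
      comm_simple_nil hp hlm hpm hmj hm0
    have e1 : ex hp (D.simple j) (1 : K) * ex hp r 1 * (ex hp (D.simple j) 1)⁻¹ = ex hp r 1 * ex hp m 1 := by
      rw [comm_simple hp hr hpos hrj hct hc1, mul_assoc (ex hp r 1), e2]
      group
    have e3 : nc hp K j * (ex hp r 1 * ex hp m 1) * (nc hp K j)⁻¹ =
        (nc hp K j * ex hp r 1 * (nc hp K j)⁻¹) * (nc hp K j * ex hp m 1 * (nc hp K j)⁻¹) := by group
    rw [e1, e3, nc_conj hp hK j hr, nc_conj hp hK j hlm, add_e hp hK cs i _ (ex_mem_UU hp cs hlr hpr 1) _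
      (ex_mem_UU hp cs (reflectRoot_lt hp.inList (lt_rank hp j) hlm) hprm 1)]
    have h5 := List.all_eq_true.1 h4 i (List.mem_range.2 i.2)
    rw [beq_iff_eq] at h5
    rw [e_ex hp cs (reflectRoot_lt hp.inList (lt_rank hp j) hlm) hprm]
    by_cases h : adj D i j = true
    · rw [if_pos h, e_ex hp cs hr hpos]
      rw [h, Bool.and_true] at h5
      by_cases h6 : r = D.simple i
      · rw [if_pos h6]
        have h7 : D.reflectRoot j m = D.simple i := by simpa [h6] using h5
        rw [if_pos h7]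
        linear_combination z2 (e hp cs i (ex hp (D.reflectRoot j r) (1 : K))) + z2 1
      · rw [if_neg h6]
        have h7 : D.reflectRoot j m ≠ D.simple i := by simpa [h6] using h5
        rw [if_neg h7]
        linear_combination z2 (e hp cs i (ex hp (D.reflectRoot j r) (1 : K)))
    · rw [if_neg h]
      have h8 : adj D i j = false := by simpa using h
      rw [h8, Bool.and_false] at h5
      have h7 : D.reflectRoot j m ≠ D.simple i := by simpa using h5
      rw [if_neg h7]
      linear_combination z2 (e hp cs i (ex hp (D.reflectRoot j r) (1 : K)))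
  · exact absurd h3 (by decide)

end Gen

end Cfsg.Agent.H225.PPow.Two
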