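import Cfsg.Agent.H225.PPow.TwoCard

/-!
# Numbers of inversions from tables of the reflections (helper225)
-/

set_option autoImplicit false
set_option linter.unusedSectionVars false

namespace Cfsg.Agent.H225.PPow.Card

open Cfsg Cfsg.Lie Cfsg.Lie.ChevalleyDatum
open Cfsg.Agent.ChevalleyStructure Cfsg.Agent.ChevalleyStructure.Elts Cfsg.Agent.ChevalleyStructure.CoxeterGeom
  Cfsg.Agent.ChevalleyStructure.CoxeterGeomTypes Cfsg.Agent.ChevalleyStructure.NPerm
  Cfsg.Agent.ChevalleyStructure.RootVec Cfsg.Agent.ChevalleyStructure.RootVecTab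
open Cfsg.Agent.Nodes.RGDChev Cfsg.Agent.H225.PPow

/-- lookup in a table of bytes -/
def look (T s : ℕ) : ℕ := (T >>> (8 * s)) &&& 255

/-- the action of a word by tables -/
def wactT (Tl : List ℕ) {l : ℕ} (ω : List (Fin l)) (r : ℕ) : ℕ := ω.foldr (fun i s => look (Tl.getD i 0) s) r

/-- the number of inversions by tables -/
def invT (N : ℕ) (Tl : List ℕ) {l : ℕ} (ω : List (Fin l)) : ℕ :=
  ((List.range N).filter fun r => decide (N ≤ 2 * r) && !decide (N ≤ 2 * wactT Tl ω r)).length

/-- the check of the tables -/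
def chkTab (D : ChevalleyDatum) {l : ℕ} (J : List (Fin l)) (N : ℕ) (Tl : List ℕ) : Bool :=
  J.all fun j => (List.range N).all fun r => look (Tl.getD j 0) r == D.reflectRoot j r

variable {D : ChevalleyDatum} {l : ℕ} {M : CoxeterMatrix (Fin l)} (hp : IsType D l M)

include hp in
theorem inv_eq {J : List (Fin l)} {N : ℕ} {Tl : List ℕ} (hN : D.nroots = N) (hc : chkTab D J N Tl = true)
    {ω : List (Fin l)} (hω : ∀ i ∈ ω, i ∈ J) : inv D ω = invT N Tl ω := by
  subst hN
  have h1 : ∀ r < D.nroots, wactT Tl ω r = wact D ω r := by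
    intro r hr
    induction ω with
    | nil => rfl
    | cons i ω ih =>
      have h2 := ih fun j hj => hω j (List.mem_cons_of_mem _ hj)
      change look (Tl.getD i 0) (wactT Tl ω r) = D.reflectRoot i (wact D ω r)
      rw [h2]
      have h3 := List.all_eq_true.1 (List.all_eq_true.1 hc i (hω i List.mem_cons_self)) (wact D ω r)
        (List.mem_range.2 (wact_lt hp ω hr))
      exact beq_iff_eq.1 h3
  have h2 : ∀ r < D.nroots, (D.neg r < r ↔ D.nroots ≤ 2 * r) := by
    intro r hr
    have := RootVec.neg_add hp.checked hr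
    omega
  unfold inv invT
  congr 1
  refine List.filter_congr fun r hr => ?_
  have hr' := List.mem_range.1 hr
  rw [h1 r hr', decide_eq_decide.2 (h2 r hr'), decide_eq_decide.2 (h2 _ (wact_lt hp ω hr'))]

include hp in
theorem sum_inv {J : List (Fin l)} {N m : ℕ} {Tl : List ℕ} (hN : D.nroots = N) (hc : chkTab D J N Tl = true)
    {L : List (List (Fin l))} (hL : (L.all fun ω => ω.all fun i => J.contains i) = true)
    (h : (L.map fun ω => 2 ^ invT N Tl ω).sum = m) : (L.map fun ω => 2 ^ inv D ω).sum = m := by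
  rw [← h]
  congr 1
  refine List.map_congr_left fun ω hω => ?_
  rw [inv_eq hp hN hc]
  intro i hi
  have h1 := List.all_eq_true.1 (List.all_eq_true.1 hL ω hω) i hi
  exact List.contains_iff_mem.1 h1

end Cfsg.Agent.H225.PPow.Card
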