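import Cfsg.Agent.H225.PPow.TwoH
import Cfsg.Agent.H225.PPow.ExcE
import Cfsg.Agent.H225.PPow.TwoTab

/-!
# Subgroups of 2-power index of `E_6(2)` (helper225)
-/

set_option autoImplicit false

namespace Cfsg.Agent.H225.PPow

open Cfsg Cfsg.Lie Cfsg.Lie.ChevalleyDatum
open Cfsg.Agent.ChevalleyStructure Cfsg.Agent.ChevalleyStructure.Elts Cfsg.Agent.ChevalleyStructure.CoxeterGeom
  Cfsg.Agent.ChevalleyStructure.CoxeterGeomTypes
open Cfsg.Agent.KFacts.SLRow.Def
open Cfsg.Agent.H225.PPow.Two

universe u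

theorem chk1E6 : chk1 chevE6 6 = true := by decide +kernel
theorem chk2E6 : chk2 chevE6 6 = true := by decide +kernel
theorem chk3E6 : chk3 chevE6 6 = true := by decide +kernel
theorem chkNbE6 : chkNb chevE6 6 [4, 8, 9, 22, 40, 16] = true := by decide +kernel
theorem chkB0E6 : chkB0 chevE6 6 281479288526134 = true := by decide +kernel
theorem chkB1E6 : chkB 6 [4, 8, 9, 22, 40, 16] 281479288526134 18446744073709551614 = true := by decide +kernel
theorem chkB2E6 : chkB 6 [4, 8, 9, 22, 40, 16] 18446744073709551614 18446744073709551614 = true := by decide +kernel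
theorem chkLE6 : chkL 6 18446744073709551614 = true := by decide +kernel
/-- the words -/
def wordsE6 : List (List (Fin 6)) := [[], [0], [2], [3], [2, 0], [3, 0], [0, 2], [3, 2], [2, 3], [0, 2, 0], [3, 2, 0], [2, 3, 0], [3, 0, 2], [2, 3, 2], [0, 2, 3], [3, 0, 2, 0], [2, 3, 2, 0], [0, 2, 3, 0], [2, 3, 0, 2], [0, 2, 3, 2], [2, 3, 0, 2, 0], [0, 2, 3, 2, 0], [0, 2, 3, 0, 2], [0, 2, 3, 0, 2, 0]]
/-- the tables of the reflections 0, 2, 3 -/
def tabsE6 : List ℕ := [68860739535078100914596739045472550060558126031925906698557184978812794185875324317535844633006154102049939227231216439978584304288106533539790046234022772551535750302269696, 0,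
  68860695135535158216797058934368584078938789528211777354868258615236502524939434476014300653026239562496047166733737140692285179851664431971808751874688785261135318011412736,
  68856980314703697980439144254334973515401028023823060939175680109056393390696631820261994746199928716884708600540244424635743493790229057459399689936210111163618278074548736]
theorem nrE6 : chevE6.nroots = 72 := by decide +kernel
theorem chkTabE6 : Card.chkTab chevE6 ([0, 2, 3] : List (Fin 6)) 72 tabsE6 = true := by decide +kernel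
theorem cabcE6 : Card.chk chevE6 [0, 2, 3] wordsE6 = true := by decide +kernel
theorem nabcE6 : (wordsE6.map fun ω => 2 ^ Card.inv chevE6 ω).sum = 315 :=
  Card.sum_inv type_E6 nrE6 chkTabE6 (by decide +kernel) (by decide +kernel)
theorem caE6 : Card.chk chevE6 [0] ([[], [0]] : List (List (Fin 6))) = true := by decide +kernel
theorem naE6 : (([[], [0]] : List (List (Fin 6))).map fun ω => 2 ^ Card.inv chevE6 ω).sum = 3 :=
  Card.sum_inv type_E6 nrE6 chkTabE6 (by decide +kernel) (by decide +kernel)
theorem cbE6 : Card.chk chevE6 [2] ([[], [2]] : List (List (Fin 6))) = true := by decide +kernel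
theorem nbE6 : (([[], [2]] : List (List (Fin 6))).map fun ω => 2 ^ Card.inv chevE6 ω).sum = 3 :=
  Card.sum_inv type_E6 nrE6 chkTabE6 (by decide +kernel) (by decide +kernel)
theorem cabE6 : Card.chk chevE6 [0, 2] ([[], [0], [2], [2, 0], [0, 2], [0, 2, 0]] : List (List (Fin 6))) = true := by decide +kernel
theorem nabE6 : (([[], [0], [2], [2, 0], [0, 2], [0, 2, 0]] : List (List (Fin 6))).map fun ω => 2 ^ Card.inv chevE6 ω).sum = 21 :=
  Card.sum_inv type_E6 nrE6 chkTabE6 (by decide +kernel) (by decide +kernel)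
theorem cbcE6 : Card.chk chevE6 [2, 3] ([[], [2], [3], [3, 2], [2, 3], [2, 3, 2]] : List (List (Fin 6))) = true := by decide +kernel
theorem nbcE6 : (([[], [2], [3], [3, 2], [2, 3], [2, 3, 2]] : List (List (Fin 6))).map fun ω => 2 ^ Card.inv chevE6 ω).sum = 21 :=
  Card.sum_inv type_E6 nrE6 chkTabE6 (by decide +kernel) (by decide +kernel)
theorem cacE6 : Card.chk chevE6 [0, 3] ([[], [0], [3], [3, 0]] : List (List (Fin 6))) = true := by decide +kernel
theorem nacE6 : (([[], [0], [3], [3, 0]] : List (List (Fin 6))).map fun ω => 2 ^ Card.inv chevE6 ω).sum = 9 :=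
  Card.sum_inv type_E6 nrE6 chkTabE6 (by decide +kernel) (by decide +kernel)
theorem ordE6 : Ord chevE6 6 0 2 3 [[], [0]] [[], [2]] [[], [0], [2], [2, 0], [0, 2], [0, 2, 0]] [[], [2], [3], [3, 2], [2, 3], [2, 3, 2]] [[], [0], [3], [3, 0]] wordsE6 :=
  ⟨by decide, by decide, by decide, caE6, naE6, cbE6, nbE6, cabE6, nabE6, cbcE6, nbcE6, cacE6,
    nacE6, cabcE6, nabcE6⟩
set_option backward.isDefEq.respectTransparency false in
theorem adjE6 : ∀ i j : Fin 6, CoxeterMatrix.E₆ i j = 2 ∨ i = j ∨ adj chevE6 i j = true := by decide +kernel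
theorem connE6 : ∀ J : Set (Fin 6), J.Nonempty → Jᶜ.Nonempty → ∃ i ∈ J, ∃ j ∈ Jᶜ, adj chevE6 i j = true := by
  intro J hJ hJc
  obtain ⟨i, hi, j, hj, h1⟩ := conn_E6 J hJ hJc
  refine ⟨i, hi, j, hj, ?_⟩
  rcases adjE6 i j with h2 | h2 | h2
  · exact absurd h2 h1
  · subst h2; exact absurd hi hj
  · exact h2

theorem good_E6_two (K : Type u) [Field K] [Finite K] (hK : Nat.card K = 2) :
    H408.Core.Good 2 ↥(chevE6.group K) := by
  have : CharP K 2 := charTwo hK
  exact good_two type_E6 hK (Cfsg.Agent.S1054.result (F := K) chevE6 (by simp)).1 chk1E6 chk2E6 chk3E6 chkNbE6 chkB0E6 chkB1E6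
    chkB2E6 chkLE6 connE6 ordE6

theorem good_E6_all (K : Type u) [Field K] [Finite K] (p : ℕ) [hp : Fact p.Prime] [CharP K p] :
    H408.Core.Good p ↥(chevE6.group K) := by
  by_cases hq : 3 ≤ Nat.card K
  · exact good_E6 K p hq
  · have h1 : 1 < Nat.card K := Finite.one_lt_card
    have h2 : Nat.card K = 2 := by omega
    have : CharP K 2 := charTwo h2
    have h3 : p = 2 := CharP.eq K ‹_› ‹_›
    subst h3
    exact good_E6_two K h2

end Cfsg.Agent.H225.PPow
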