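import Cfsg.Agent.H225.PPow.TwoH
import Cfsg.Agent.H225.PPow.ExcE
import Cfsg.Agent.H225.PPow.TwoTab

/-!
# Subgroups of 2-power index of `E_7(2)` (helper225)
-/

set_option autoImplicit false

namespace Cfsg.Agent.H225.PPow

open Cfsg Cfsg.Lie Cfsg.Lie.ChevalleyDatum
open Cfsg.Agent.ChevalleyStructure Cfsg.Agent.ChevalleyStructure.Elts Cfsg.Agent.ChevalleyStructure.CoxeterGeom
  Cfsg.Agent.ChevalleyStructure.CoxeterGeomTypes
open Cfsg.Agent.KFacts.SLRow.Def
open Cfsg.Agent.H225.PPow.Two

universe u

theorem chk1E7 : chk1 chevE7 7 = true := by decide +kernel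
theorem chk2E7 : chk2 chevE7 7 = true := by decide +kernel
theorem chk3E7 : chk3 chevE7 7 = true := by decide +kernel
theorem chkNbE7 : chkNb chevE7 7 [4, 8, 9, 22, 40, 80, 32] = true := by decide +kernel
theorem chkB0E7 : chkB0 chevE7 7 79228162532711363146542028086 = true := by decide +kernel
theorem chkB1E7 : chkB 7 [4, 8, 9, 22, 40, 80, 32] 79228162532711363146542028086 340282366920933627760096148915069386750 = true := by decide +kernel
theorem chkB2E7 : chkB 7 [4, 8, 9, 22, 40, 80, 32] 340282366920933627760096148915069386750 340282366920938463463374607431768211454 = true := by decide +kernel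
theorem chkLE7 : chkL 7 340282366920938463463374607431768211454 = true := by decide +kernel
/-- the words -/
def wordsE7 : List (List (Fin 7)) := [[], [0], [2], [3], [2, 0], [3, 0], [0, 2], [3, 2], [2, 3], [0, 2, 0], [3, 2, 0], [2, 3, 0], [3, 0, 2], [2, 3, 2], [0, 2, 3], [3, 0, 2, 0], [2, 3, 2, 0], [0, 2, 3, 0], [2, 3, 0, 2], [0, 2, 3, 2], [2, 3, 0, 2, 0], [0, 2, 3, 2, 0], [0, 2, 3, 0, 2], [0, 2, 3, 0, 2, 0]]
/-- the tables of the reflections 0, 2, 3 -/
def tabsE7 : List ℕ := [1333922837158942011638783835004871262489243524474933806757983325204324354148955901128787715251435855896924984706939979518567157242719197682064722754383056752064764745714105188869695029532754693822593611899134007025978423511653352929402726346889239349767349520011297160997758072428838116713298751769411585, 0,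
  1344554375120106414798065960470017614978713755228414151433370668601621092779175356141058506517844188051958962228323355573505999256791464453714183605373019334854214694897010135565448054736646733569358624734534287147711832887250382219472046131816456686545071408428738776743299531196152165404305104465625600,
  1344595904565267213246157475033494803249157207063324738659324389841659715695283955303815316936280329696179597506512307998177941509827115356010016869474657504041538202575428963476748087995021914745714269311908081227369626699231579603641239181490320192525717933280632587761748264543583905599801831599571200]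
theorem nrE7 : chevE7.nroots = 126 := by decide +kernel
theorem chkTabE7 : Card.chkTab chevE7 ([0, 2, 3] : List (Fin 7)) 126 tabsE7 = true := by decide +kernel
theorem cabcE7 : Card.chk chevE7 [0, 2, 3] wordsE7 = true := by decide +kernel
theorem nabcE7 : (wordsE7.map fun ω => 2 ^ Card.inv chevE7 ω).sum = 315 :=
  Card.sum_inv type_E7 nrE7 chkTabE7 (by decide +kernel) (by decide +kernel)
theorem caE7 : Card.chk chevE7 [0] ([[], [0]] : List (List (Fin 7))) = true := by decide +kernel
theorem naE7 : (([[], [0]] : List (List (Fin 7))).map fun ω => 2 ^ Card.inv chevE7 ω).sum = 3 :=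
  Card.sum_inv type_E7 nrE7 chkTabE7 (by decide +kernel) (by decide +kernel)
theorem cbE7 : Card.chk chevE7 [2] ([[], [2]] : List (List (Fin 7))) = true := by decide +kernel
theorem nbE7 : (([[], [2]] : List (List (Fin 7))).map fun ω => 2 ^ Card.inv chevE7 ω).sum = 3 :=
  Card.sum_inv type_E7 nrE7 chkTabE7 (by decide +kernel) (by decide +kernel)
theorem cabE7 : Card.chk chevE7 [0, 2] ([[], [0], [2], [2, 0], [0, 2], [0, 2, 0]] : List (List (Fin 7))) = true := by decide +kernel
theorem nabE7 : (([[], [0], [2], [2, 0], [0, 2], [0, 2, 0]] : List (List (Fin 7))).map fun ω => 2 ^ Card.inv chevE7 ω).sum = 21 :=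
  Card.sum_inv type_E7 nrE7 chkTabE7 (by decide +kernel) (by decide +kernel)
theorem cbcE7 : Card.chk chevE7 [2, 3] ([[], [2], [3], [3, 2], [2, 3], [2, 3, 2]] : List (List (Fin 7))) = true := by decide +kernel
theorem nbcE7 : (([[], [2], [3], [3, 2], [2, 3], [2, 3, 2]] : List (List (Fin 7))).map fun ω => 2 ^ Card.inv chevE7 ω).sum = 21 :=
  Card.sum_inv type_E7 nrE7 chkTabE7 (by decide +kernel) (by decide +kernel)
theorem cacE7 : Card.chk chevE7 [0, 3] ([[], [0], [3], [3, 0]] : List (List (Fin 7))) = true := by decide +kernel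
theorem nacE7 : (([[], [0], [3], [3, 0]] : List (List (Fin 7))).map fun ω => 2 ^ Card.inv chevE7 ω).sum = 9 :=
  Card.sum_inv type_E7 nrE7 chkTabE7 (by decide +kernel) (by decide +kernel)
theorem ordE7 : Ord chevE7 7 0 2 3 [[], [0]] [[], [2]] [[], [0], [2], [2, 0], [0, 2], [0, 2, 0]] [[], [2], [3], [3, 2], [2, 3], [2, 3, 2]] [[], [0], [3], [3, 0]] wordsE7 :=
  ⟨by decide, by decide, by decide, caE7, naE7, cbE7, nbE7, cabE7, nabE7, cbcE7, nbcE7, cacE7,
    nacE7, cabcE7, nabcE7⟩
set_option backward.isDefEq.respectTransparency false in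
theorem adjE7 : ∀ i j : Fin 7, CoxeterMatrix.E₇ i j = 2 ∨ i = j ∨ adj chevE7 i j = true := by decide +kernel
theorem connE7 : ∀ J : Set (Fin 7), J.Nonempty → Jᶜ.Nonempty → ∃ i ∈ J, ∃ j ∈ Jᶜ, adj chevE7 i j = true := by
  intro J hJ hJc
  obtain ⟨i, hi, j, hj, h1⟩ := conn_E7 J hJ hJc
  refine ⟨i, hi, j, hj, ?_⟩
  rcases adjE7 i j with h2 | h2 | h2
  · exact absurd h2 h1
  · subst h2; exact absurd hi hj
  · exact h2

theorem good_E7_two (K : Type u) [Field K] [Finite K] (hK : Nat.card K = 2) :
    H408.Core.Good 2 ↥(chevE7.group K) := by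
  have : CharP K 2 := charTwo hK
  exact good_two type_E7 hK (Cfsg.Agent.S1054.result (F := K) chevE7 (by simp)).1 chk1E7 chk2E7 chk3E7 chkNbE7 chkB0E7 chkB1E7
    chkB2E7 chkLE7 connE7 ordE7

theorem good_E7_all (K : Type u) [Field K] [Finite K] (p : ℕ) [hp : Fact p.Prime] [CharP K p] :
    H408.Core.Good p ↥(chevE7.group K) := by
  by_cases hq : 3 ≤ Nat.card K
  · exact good_E7 K p hq
  · have h1 : 1 < Nat.card K := Finite.one_lt_card
    have h2 : Nat.card K = 2 := by omega
    have : CharP K 2 := charTwo h2
    have h3 : p = 2 := CharP.eq K ‹_› ‹_›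
    subst h3
    exact good_E7_two K h2

end Cfsg.Agent.H225.PPow
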