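import Cfsg.Agent.H225.PPow.TwoE

/-!
# Subgroups of 2-power index of `E_8(2)` (helper225)
-/

set_option autoImplicit false

namespace Cfsg.Agent.H225.PPow

open Cfsg Cfsg.Lie Cfsg.Lie.ChevalleyDatum
open Cfsg.Agent.ChevalleyStructure Cfsg.Agent.ChevalleyStructure.Elts Cfsg.Agent.ChevalleyStructure.CoxeterGeom
  Cfsg.Agent.ChevalleyStructure.CoxeterGeomTypes
open Cfsg.Agent.KFacts.SLRow.Def
open Cfsg.Agent.H225.PPow.Two

universe u

theorem chk1E8 : chk1 chevE8 8 = true := by decide +kernel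

end Cfsg.Agent.H225.PPow
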