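import Cfsg.Agent.H225.PPow.TwoG

/-!
# Subgroups of 2-power index of `E_8(2)` (helper225)
-/

set_option autoImplicit false

namespace Cfsg.Agent.H225.PPow

open Cfsg Cfsg.Lie Cfsg.Lie.ChevalleyDatum
open Cfsg.Agent.ChevalleyStructure Cfsg.Agent.ChevalleyStructure.Elts Cfsg.Agent.ChevalleyStructure.CoxeterGeom
  Cfsg.Agent.ChevalleyStructure.CoxeterGeomTypes
open Cfsg.Agent.KFacts.SLRow.Def
open Cfsg.Agent.H225.PPow.Two

universe u

theorem chk2E8 : chk2 chevE8 8 = true := by decide +kernel
theorem chk3E8 : chk3 chevE8 8 = true := by decide +kernel
theorem chkNbE8 : chkNb chevE8 8 [4, 8, 9, 22, 40, 80, 160, 64] = true := by decide +kernel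
theorem chkB0E8 : chkB0 chevE8 8 6277101735386680764176071790207833042098441415042344752438 = true := by decide +kernel
theorem chkB1E8 : chkB 8 [4, 8, 9, 22, 40, 80, 160, 64] 6277101735386680764176071790207833042098441415042344752438 115792089237316195423570985008687907853269984665640564039457584007913129639934 = true := by decide +kernel
theorem chkB2E8 : chkB 8 [4, 8, 9, 22, 40, 80, 160, 64] 115792089237316195423570985008687907853269984665640564039457584007913129639934 115792089237316195423570985008687907853269984665640564039457584007913129639934 = true := by decide +kernel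
theorem chkLE8 : chkL 8 115792089237316195423570985008687907853269984665640564039457584007913129639934 = true := by decide +kernel

end Cfsg.Agent.H225.PPow
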