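import Cfsg.Agent.H225.PPow.TwoH
import Cfsg.Agent.H225.PPow.ExcE
import Cfsg.Agent.H225.PPow.TwoE8A
import Cfsg.Agent.H225.PPow.TwoE8B
import Cfsg.Agent.H225.PPow.TwoE8C

/-!
# Subgroups of 2-power index of `E_8(2)` (helper225)
-/

set_option autoImplicit false

namespace Cfsg.Agent.H225.PPow

open Cfsg Cfsg.Lie Cfsg.Lie.ChevalleyDatum
open Cfsg.Agent.ChevalleyStructure Cfsg.Agent.ChevalleyStructure.Elts Cfsg.Agent.ChevalleyStructure.CoxeterGeom
  Cfsg.Agent.ChevalleyStructure.CoxeterGeomTypes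
open Cfsg.Agent.KFacts.SLRow.Def
open Cfsg.Agent.H225.PPow.Two

universe u

set_option backward.isDefEq.respectTransparency false in
theorem adjE8 : ∀ i j : Fin 8, CoxeterMatrix.E₈ i j = 2 ∨ i = j ∨ adj chevE8 i j = true := by decide +kernel
theorem connE8 : ∀ J : Set (Fin 8), J.Nonempty → Jᶜ.Nonempty → ∃ i ∈ J, ∃ j ∈ Jᶜ, adj chevE8 i j = true := by
  intro J hJ hJc
  obtain ⟨i, hi, j, hj, h1⟩ := conn_E8 J hJ hJc
  refine ⟨i, hi, j, hj, ?_⟩
  rcases adjE8 i j with h2 | h2 | h2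
  · exact absurd h2 h1
  · subst h2; exact absurd hi hj
  · exact h2

theorem good_E8_two (K : Type u) [Field K] [Finite K] (hK : Nat.card K = 2) :
    H408.Core.Good 2 ↥(chevE8.group K) := by
  have : CharP K 2 := charTwo hK
  exact good_two type_E8 hK (Cfsg.Agent.S1054.result (F := K) chevE8 (by simp)).1 chk1E8 chk2E8 chk3E8 chkNbE8 chkB0E8 chkB1E8
    chkB2E8 chkLE8 connE8 ordE8

theorem good_E8_all (K : Type u) [Field K] [Finite K] (p : ℕ) [hp : Fact p.Prime] [CharP K p] :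
    H408.Core.Good p ↥(chevE8.group K) := by
  by_cases hq : 3 ≤ Nat.card K
  · exact good_E8 K p hq
  · have h1 : 1 < Nat.card K := Finite.one_lt_card
    have h2 : Nat.card K = 2 := by omega
    have : CharP K 2 := charTwo h2
    have h3 : p = 2 := CharP.eq K ‹_› ‹_›
    subst h3
    exact good_E8_two K h2

end Cfsg.Agent.H225.PPow
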