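import Cfsg.Agent.H225.PPow.TwoE
import Cfsg.Agent.KFacts.RgdAutFacts

/-!
# Subgroups of 2-power index of the simply laced Chevalley groups over the field with two elements, II (helper225)
-/

set_option autoImplicit false
set_option linter.unusedSectionVars false

namespace Cfsg.Agent.H225.PPow.Two

open CoxeterSystem Subgroup Cfsg Cfsg.Lie Cfsg.Lie.ChevalleyDatum
open Cfsg.Agent.ChevalleyStructure Cfsg.Agent.ChevalleyStructure.Elts Cfsg.Agent.ChevalleyStructure.CoxeterGeom
  Cfsg.Agent.ChevalleyStructure.CoxeterGeomTypes Cfsg.Agent.ChevalleyStructure.NPerm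
  Cfsg.Agent.ChevalleyStructure.RootVec Cfsg.Agent.ChevalleyStructure.RootVecTab
open Cfsg.Agent.Tits.Roots Cfsg.Agent.Tits.Core Cfsg.Agent.Tits.RootComb Cfsg.Agent.Nodes.Comb
  Cfsg.Agent.Nodes.Reps Cfsg.Agent.Nodes.BNOf Cfsg.Agent.Nodes.StabComb Cfsg.Agent.Nodes.Bruhat
  Cfsg.Agent.Nodes.LeviDec Cfsg.Agent.Nodes.NormalForm Cfsg.Agent.Nodes.RGDChev Cfsg.Agent.Nodes.OppDec
open Cfsg.Agent.KFacts.RgdChevCoord Cfsg.Agent.H225.PPow Cfsg.Agent.BpExc.TorChev
open Cfsg.Agent.KFacts.SLRow.Def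

universe u

/-- the check of the `A₂` residues -/
def chk3 (D : ChevalleyDatum) (l : ℕ) : Bool :=
  (List.range l).all fun j => (List.range l).all fun k => !adj D j k ||
    (j != k &&
    match D.commTerms (D.simple k) (D.simple j) with
    | [(m, c, 1, 1)] => c.natAbs == 1 && (D.commTerms m (D.simple j)).isEmpty && (D.commTerms m (D.simple k)).isEmpty &&
        decide (m < D.nroots) && decide (D.neg m < m) && m != D.simple j && m != D.simple k &&
        D.reflectRoot j m == D.simple k && D.reflectRoot k m == D.simple j &&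
        (List.range D.nroots).all fun r => !decide (D.neg r < r) || r == m || r == D.simple j || r == D.simple k ||
          (List.range l).any fun i => i != j && i != k && !decide (rt D r i = 0)
    | _ => false)

/-! ### the group of order 8 -/

theorem three_form {Y : Type*} [Group Y] {a b z : Y} (ha : a * a = 1) (hb : b * b = 1) (hz : z * z = 1)
    (hba : b * a = a * b * z) (hza : z * a = a * z) (hzb : z * b = b * z) {w : Y}
    (hw : w ∈ closure ({a, b, z} : Set Y)) : ∃ i k l : ℕ, w = a ^ i * b ^ k * z ^ l := by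
  have hzai : ∀ i : ℕ, z * a ^ i = a ^ i * z := fun i => (Commute.pow_right (show Commute z a from hza) i).eq
  have hzbi : ∀ i : ℕ, z * b ^ i = b ^ i * z := fun i => (Commute.pow_right (show Commute z b from hzb) i).eq
  have hzi : ∀ i j : ℕ, z ^ i * b ^ j = b ^ j * z ^ i := fun i j => (Commute.pow_pow (show Commute z b from hzb) i j).eq
  have hbai : ∀ i : ℕ, b * a ^ i = a ^ i * b * z ^ i := by
    intro i
    induction i with
    | zero => simp
    | succ i ih =>
      rw [pow_succ a, ← mul_assoc, ih, mul_assoc (a ^ i * b), (Commute.pow_left (show Commute z a from hza) i).eq,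
        ← mul_assoc, mul_assoc (a ^ i) b a, hba, pow_succ' z i]
      simp only [mul_assoc]
  have key : ∀ x ∈ ({a, b, z} : Set Y), ∀ y : Y, (∃ i k l : ℕ, y = a ^ i * b ^ k * z ^ l) →
      ∃ i k l : ℕ, x * y = a ^ i * b ^ k * z ^ l := by
    rintro x hx y ⟨i, k, l, rfl⟩
    rcases hx with rfl | rfl | rfl
    · exact ⟨i + 1, k, l, by rw [pow_succ']; simp only [mul_assoc]⟩
    · refine ⟨i, k + 1, i + l, ?_⟩
      calc x * (a ^ i * x ^ k * z ^ l) = (x * a ^ i) * x ^ k * z ^ l := by simp only [mul_assoc]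
        _ = a ^ i * x * (z ^ i * x ^ k) * z ^ l := by rw [hbai]; simp only [mul_assoc]
        _ = a ^ i * (x * x ^ k) * (z ^ i * z ^ l) := by rw [hzi]; simp only [mul_assoc]
        _ = _ := by rw [← pow_succ', ← pow_add]
    · refine ⟨i, k, l + 1, ?_⟩
      calc x * (a ^ i * b ^ k * x ^ l) = (x * a ^ i) * b ^ k * x ^ l := by simp only [mul_assoc]
        _ = a ^ i * (x * b ^ k) * x ^ l := by rw [hzai]; simp only [mul_assoc]
        _ = a ^ i * b ^ k * (x * x ^ l) := by rw [hzbi]; simp only [mul_assoc]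
        _ = _ := by rw [← pow_succ']
  have hinv : ∀ x ∈ ({a, b, z} : Set Y), x⁻¹ = x := by
    rintro x hx
    rcases hx with rfl | rfl | rfl
    · exact inv_eq_of_mul_eq_one_left ha
    · exact inv_eq_of_mul_eq_one_left hb
    · exact inv_eq_of_mul_eq_one_left hz
  induction hw using Subgroup.closure_induction_left with
  | one => exact ⟨0, 0, 0, by simp⟩
  | mul_left x hx y _ ih => exact key x hx y ih
  | inv_mul_cancel x hx y _ ih => rw [hinv x hx]; exact key x hx y ih

theorem pow_mod {Y : Type*} [Group Y] {a : Y} (ha : a * a = 1) (i : ℕ) : a ^ i = a ^ (i % 2) := by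
  conv_lhs => rw [← Nat.div_add_mod i 2, pow_add, pow_mul, pow_two, ha, one_pow, one_mul]

section Gen

variable {D : ChevalleyDatum} {l : ℕ} {M : CoxeterMatrix (Fin l)} (hp : IsType D l M) {K : Type u} [Field K]
  [Finite K] (hK : Nat.card K = 2) {W : Type*} [Group W] [Finite W] (cs : CoxeterSystem M W) [CharP K 2]

/-- the subgroup `V` -/
abbrev VV (H : Subgroup ↥(D.group K)) : Subgroup ↥(D.group K) := H ⊓ UU hp cs

theorem VJ_le_QQ {J : Set (Fin l)} {j : Fin l} (hj : j ∈ J) :
    VJ cs hp.isCartan (XX D l K) J ≤ QQ hp (K := K) cs j := by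
  refine RGD.Sup_mono fun x hx => ⟨hx.1, hx.2.1, ?_⟩
  rintro rfl
  obtain ⟨-, -, k, hk, hk0⟩ := hx
  rw [sr_ne (fun h : k = j => hk (by rw [h]; exact hj))] at hk0
  exact lt_irrefl _ hk0

include hK in
/-- spreading along an edge -/
theorem edge (h3 : chk3 D l = true) {H : Subgroup ↥(D.group K)}
    (hmul : ∀ g : ↥(D.group K), ∃ u ∈ UU hp cs, ∃ x ∈ H, g = u * x) {j k : Fin l} (hadj : adj D j k = true)
    (hv : ∃ v ∈ H, v ∈ UU hp cs ∧ e hp cs j v = 1) :
    (∃ v ∈ H, v ∈ UU hp cs ∧ e hp cs j v = 1 ∧ e hp cs k v = 0) ∧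
      ∃ v ∈ H, v ∈ UU hp cs ∧ e hp cs j v = 0 ∧ e hp cs k v = 1 := by
  have : Fact (Nat.Prime 2) := ⟨Nat.prime_two⟩
  have R := rgd (K := K) hp cs 2
  have h4 := List.all_eq_true.1 (List.all_eq_true.1 h3 j (List.mem_range.2 j.2)) k (List.mem_range.2 k.2)
  rw [hadj] at h4
  simp only [Bool.not_true, Bool.false_or, Bool.and_eq_true, bne_iff_ne, ne_eq] at h4
  obtain ⟨hjk, h4⟩ := h4
  have hjk' : j ≠ k := fun h => hjk (by rw [h])
  have hj := RootVec.simple_lt hp.checked (lt_rank hp j)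
  have hk := RootVec.simple_lt hp.checked (lt_rank hp k)
  split at h4
  · rename_i m c hct
    simp only [Bool.and_eq_true, beq_iff_eq, List.isEmpty_iff, decide_eq_true_eq, bne_iff_ne, ne_eq] at h4
    obtain ⟨⟨⟨⟨⟨⟨⟨⟨⟨hc1, hmj0⟩, hmk0⟩, hml⟩, hmp⟩, hmj⟩, hmk⟩, hrj⟩, hrk⟩, h5⟩ := h4
    have hsjk : D.simple k ≠ D.simple j := fun h => hjk' (simple_inj hp h).symm
    set a := ex hp (D.simple j) (1 : K) with hadef
    set b := ex hp (D.simple k) (1 : K) with hbdef
    set z := ex hp m (1 : K) with hzdef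
    set Q := VJ cs hp.isCartan (XX D l K) {j, k} with hQdef
    have haU : a ∈ UU hp (K := K) cs := ex_mem_UU hp cs hj (pos_simple hp j) 1
    have hbU : b ∈ UU hp (K := K) cs := ex_mem_UU hp cs hk (pos_simple hp k) 1
    have ha2 : a * a = 1 := ex_sq hp _
    have hb2 : b * b = 1 := ex_sq hp _
    have hz2 : z * z = 1 := ex_sq hp _
    have hab : a * b = b * a * z := comm_simple hp hk (pos_simple hp k) hsjk hct hc1
    have za : z * a = a * z := (comm_simple_nil hp hml hmp hmj hmj0).symm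
    have zb : z * b = b * z := (comm_simple_nil hp hml hmp hmk hmk0).symm
    have hba : b * a = a * b * z := by
      rw [hab, mul_assoc (b * a), hz2, mul_one]
    have hz : z = a * b * a * b := by
      rw [mul_assoc (a * b), hab]
      calc z = b * (a * a) * b * z := by rw [ha2, mul_one, hb2, one_mul]
        _ = b * a * (a * b) * z := by simp only [mul_assoc]
        _ = b * a * (b * a * z) * z := by rw [hab]
        _ = b * a * z * (b * a * z) := by
          have : z * (b * a * z) = (b * a * z) * z := by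
            rw [← mul_assoc, ← mul_assoc, zb, mul_assoc b z a, za, ← mul_assoc]
          rw [mul_assoc (b * a) z, this, mul_assoc]
    have hUPJ : UU hp (K := K) cs ≤ PJ cs hp.isCartan (TT D K) (XX D l K) {j, k} := le_trans RGD.U_le_B B_le_PJ
    have hUN : UU hp (K := K) cs ≤ normalizer (Q : Set ↥(D.group K)) := hUPJ.trans (PJ_le_normalizer_VJ R {j, k})
    have hnj : nc hp K j ∈ normalizer (Q : Set ↥(D.group K)) :=
      PJ_le_normalizer_VJ R {j, k} (LJ_le_PJ (n_mem_LJ R (by simp)))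
    have hnk : nc hp K k ∈ normalizer (Q : Set ↥(D.group K)) :=
      PJ_le_normalizer_VJ R {j, k} (LJ_le_PJ (n_mem_LJ R (by simp)))
    have hm1 : nc hp K k * z * (nc hp K k)⁻¹ = a := by rw [hzdef, nc_conj hp hK k hml, hrk]
    have hm2 : nc hp K j * z * (nc hp K j)⁻¹ = b := by rw [hzdef, nc_conj hp hK j hml, hrj]
    -- the form of the elements of `U_J`
    have hUJ : UJ cs hp.isCartan (XX D l K) {j, k} ≤ closure ({a, b, z} : Set ↥(D.group K)) := by
      refine RGD.Sup_le fun x hx u hu => ?_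
      obtain ⟨hx, h0, hs⟩ := hx
      obtain ⟨r, hr, rfl⟩ := (isRoot_iff hp cs x).1 hx
      rcases mem_XX hp hK hr hu with rfl | rfl
      · exact one_mem _
      have hpos : D.neg r < r := (Card.nonneg_iff hp hr).1 h0
      have h6 := List.all_eq_true.1 h5 r (List.mem_range.2 hr)
      simp only [hpos, decide_true, Bool.not_true, Bool.false_or, Bool.or_eq_true, beq_iff_eq, List.any_eq_true,
        List.mem_range, Bool.and_eq_true, bne_iff_ne, ne_eq, Bool.not_eq_true', decide_eq_false_iff_not] at h6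
      rcases h6 with ((rfl | rfl) | rfl) | ⟨i, hi, ⟨hij, hik⟩, hne⟩
      · exact subset_closure (Or.inr (Or.inr rfl))
      · exact subset_closure (Or.inl rfl)
      · exact subset_closure (Or.inr (Or.inl rfl))
      · exfalso
        apply hne
        refine hs ⟨i, hi⟩ ?_
        simp only [Set.mem_insert_iff, Set.mem_singleton_iff, not_or]
        exact ⟨fun h => hij (by rw [← h]), fun h => hik (by rw [← h])⟩
    have hform : ∀ u ∈ UU hp (K := K) cs, ∃ i k' l' : ℕ, ∃ q ∈ Q, u = a ^ i * b ^ k' * z ^ l' * q := by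
      intro u hu
      obtain ⟨w, hw, q, hq, rfl⟩ := (mem_U_iff R (J := {j, k})).1 hu
      obtain ⟨i, k', l', rfl⟩ := three_form ha2 hb2 hz2 hba za zb (hUJ hw)
      exact ⟨i, k', l', q, hq, rfl⟩
    have hcz : ∀ u ∈ UU hp (K := K) cs, u * z * u⁻¹ * z⁻¹ ∈ Q := by
      intro u hu
      have hzN : z ∈ normalizer (Q : Set ↥(D.group K)) := hUN (ex_mem_UU hp cs hml hmp 1)
      obtain ⟨i, k', l', q, hq, rfl⟩ := hform u hu
      set w := a ^ i * b ^ k' * z ^ l' with hw
      have hwz : z * w = w * z := by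
        have h1 : Commute z w := by
          refine ((Commute.pow_right (show Commute z a from za) i).mul_right
            (Commute.pow_right (show Commute z b from zb) k')).mul_right (Commute.pow_right (Commute.refl z) l')
        exact h1.eq
      have hwN : w ∈ normalizer (Q : Set ↥(D.group K)) := by
        have := mul_mem (hUN hu) (inv_mem (le_normalizer hq))
        rwa [mul_inv_cancel_right] at this
      have e1 : w * q * z * (w * q)⁻¹ * z⁻¹ = w * (q * (z * q⁻¹ * z⁻¹)) * w⁻¹ := by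
        have : w⁻¹ * z⁻¹ = z⁻¹ * w⁻¹ := by rw [← mul_inv_rev, ← mul_inv_rev, hwz]
        calc w * q * z * (w * q)⁻¹ * z⁻¹ = w * q * z * q⁻¹ * (w⁻¹ * z⁻¹) := by group
          _ = _ := by rw [this]; group
      rw [e1]
      exact (mem_normalizer_iff.1 hwN _).1 (mul_mem hq ((mem_normalizer_iff.1 hzN _).1 (inv_mem hq)))
    -- the coordinates
    have hej := add_e hp hK cs j
    have hek := add_e hp hK cs k
    have ej0 : ∀ q ∈ Q, e hp cs j q = 0 := fun q hq => (e_zero_iff hp cs).2 (VJ_le_QQ hp cs (by simp) hq)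
    have ek0 : ∀ q ∈ Q, e hp cs k q = 0 := fun q hq => (e_zero_iff hp cs).2 (VJ_le_QQ hp cs (by simp) hq)
    have hQU : Q ≤ UU hp (K := K) cs := VJ_le_U _
    obtain ⟨v, hvH, hvU, hv1⟩ := hv
    obtain ⟨i, k', l', q, hq, rfl⟩ := hform v hvU
    have hzU : z ∈ UU hp (K := K) cs := ex_mem_UU hp cs hml hmp 1
    have hbQ : b ∈ QQ hp (K := K) cs j := ex_mem_QQ hp cs hk (pos_simple hp k) hsjk 1
    have hzQ : z ∈ QQ hp (K := K) cs j := ex_mem_QQ hp cs hml hmp hmj 1
    have hodd : i % 2 = 1 := by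
      by_contra hcon
      have h0 : i % 2 = 0 := by omega
      have h7 : a ^ i * b ^ k' * z ^ l' * q ∈ QQ hp (K := K) cs j := by
        rw [pow_mod ha2 i, h0, pow_zero, one_mul]
        exact mul_mem (mul_mem (pow_mem hbQ _) (pow_mem hzQ _)) (VJ_le_QQ hp cs (by simp) hq)
      rw [(e_zero_iff hp cs).2 h7] at hv1
      exact absurd hv1 (by decide)
    have hw : a ^ i * b ^ k' * z ^ l' = a ∨ a ^ i * b ^ k' * z ^ l' = a * z ∨ a ^ i * b ^ k' * z ^ l' = a * b ∨
        a ^ i * b ^ k' * z ^ l' = a * b * z := by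
      rw [pow_mod ha2 i, hodd, pow_one, pow_mod hb2 k', pow_mod hz2 l']
      rcases Nat.mod_two_eq_zero_or_one k' with h | h <;> rcases Nat.mod_two_eq_zero_or_one l' with h' | h' <;>
        rw [h, h'] <;> simp
    obtain ⟨⟨q1, hq1, h6⟩, q2, hq2, h7⟩ := a2 hmul hUN haU hbU ha2 hb2 hz hm1 hm2 hnk hnj hcz za zb hvH hq rfl hw
    have haj : e hp cs j a = 1 := e_simple hp cs j
    have hbk : e hp cs k b = 1 := e_simple hp cs k
    have hak : e hp cs k a = 0 := (e_zero_iff hp cs).2 (ex_mem_QQ hp cs hj (pos_simple hp j) (Ne.symm hsjk) 1)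
    have hbj : e hp cs j b = 0 := (e_zero_iff hp cs).2 hbQ
    refine ⟨⟨a * q1, h6, mul_mem haU (hQU hq1), ?_, ?_⟩, b * q2, h7, mul_mem hbU (hQU hq2), ?_, ?_⟩
    · rw [hej _ haU _ (hQU hq1), haj, ej0 _ hq1, add_zero]
    · rw [hek _ haU _ (hQU hq1), hak, ek0 _ hq1, add_zero]
    · rw [hej _ hbU _ (hQU hq2), hbj, ej0 _ hq2, add_zero]
    · rw [hek _ hbU _ (hQU hq2), hbk, ek0 _ hq2, add_zero]
  · exact absurd h4 (by decide)

end Gen

end Cfsg.Agent.H225.PPow.Two
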