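import Cfsg.Agent.H225.PPow.TwoF

/-!
# Subgroups of 2-power index of the simply laced Chevalley groups over the field with two elements, III (helper225)
-/

set_option autoImplicit false
set_option linter.unusedSectionVars false

namespace Cfsg.Agent.H225.PPow.Two

open CoxeterSystem Subgroup Cfsg Cfsg.Lie Cfsg.Lie.ChevalleyDatum
open Cfsg.Agent.ChevalleyStructure Cfsg.Agent.ChevalleyStructure.Elts Cfsg.Agent.ChevalleyStructure.CoxeterGeom
  Cfsg.Agent.ChevalleyStructure.CoxeterGeomTypes Cfsg.Agent.ChevalleyStructure.NPerm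
  Cfsg.Agent.ChevalleyStructure.RootVec Cfsg.Agent.ChevalleyStructure.RootVecTab
open Cfsg.Agent.Tits.Roots Cfsg.Agent.Tits.Core Cfsg.Agent.Tits.RootComb Cfsg.Agent.Nodes.Comb
  Cfsg.Agent.Nodes.Reps Cfsg.Agent.Nodes.BNOf Cfsg.Agent.Nodes.StabComb Cfsg.Agent.Nodes.Bruhat
  Cfsg.Agent.Nodes.LeviDec Cfsg.Agent.Nodes.NormalForm Cfsg.Agent.Nodes.RGDChev Cfsg.Agent.Nodes.OppDec
open Cfsg.Agent.KFacts.RgdChevCoord Cfsg.Agent.H225.PPow Cfsg.Agent.BpExc.TorChev
open Cfsg.Agent.KFacts.SLRow.Def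

universe u

/-! ### masks -/

/-- the check of the masks of the neighbours -/
def chkNb (D : ChevalleyDatum) (l : ℕ) (nb : List ℕ) : Bool :=
  (List.range l).all fun j => !(nb.getD j 0).testBit j && (List.range l).all fun i => adj D i j == (nb.getD j 0).testBit i

/-- the first level: single nodes and edges -/
def chkB0 (D : ChevalleyDatum) (l : ℕ) (B : ℕ) : Bool :=
  (List.range (2 ^ l)).all fun S => !B.testBit S || ((List.range l).any fun j => S == 2 ^ j) ||
    (List.range l).any fun j => (List.range l).any fun k => j != k && adj D j k && S == 2 ^ j ||| 2 ^ k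

/-- the next level -/
def chkB (l : ℕ) (nb : List ℕ) (B B' : ℕ) : Bool :=
  (List.range (2 ^ l)).all fun S => !B'.testBit S || B.testBit S ||
    (List.range l).any fun j => B.testBit (S &&& nb.getD j 0) && B.testBit ((S &&& nb.getD j 0) ||| 2 ^ j)

/-- the last level -/
def chkL (l : ℕ) (B : ℕ) : Bool := (List.range (2 ^ l)).all fun S => S == 0 || B.testBit S

theorem next {l : ℕ} {nb : List ℕ} {B B' : ℕ} {P : ℕ → Prop} (h : chkB l nb B B' = true)
    (hP : ∀ S j, j < l → P (S &&& nb.getD j 0) → P ((S &&& nb.getD j 0) ||| 2 ^ j) → P S)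
    (h0 : ∀ S < 2 ^ l, B.testBit S = true → P S) : ∀ S < 2 ^ l, B'.testBit S = true → P S := by
  intro S hS hB
  have h1 := List.all_eq_true.1 h S (List.mem_range.2 hS)
  rw [hB] at h1
  simp only [Bool.not_true, Bool.false_or, Bool.or_eq_true, List.any_eq_true, List.mem_range, Bool.and_eq_true] at h1
  rcases h1 with h1 | ⟨j, hj, h1, h2⟩
  · exact h0 S hS h1
  · have h3 : S &&& nb.getD j 0 < 2 ^ l := lt_of_le_of_lt Nat.and_le_left hS
    have h4 : (2 : ℕ) ^ j < 2 ^ l := Nat.pow_lt_pow_right (by norm_num) hj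
    exact hP S j hj (h0 _ h3 h1) (h0 _ (Nat.or_lt_two_pow h3 h4) h2)

section Gen

variable {D : ChevalleyDatum} {l : ℕ} {M : CoxeterMatrix (Fin l)} (hp : IsType D l M) {K : Type u} [Field K]
  [Finite K] (hK : Nat.card K = 2) {W : Type*} [Group W] [Finite W] (cs : CoxeterSystem M W) [CharP K 2]

/-- the sum of the coordinates of a mask -/
noncomputable def eS (S : ℕ) (u : ↥(D.group K)) : ZMod 2 :=
  ∑ i ∈ Finset.univ.filter (fun i : Fin l => S.testBit i = true), e hp cs i u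

include hK in
theorem add_eS (S : ℕ) : Add (eS hp cs S) (UU hp (K := K) cs) :=
  Add.sum (e := fun i u => e hp cs i u) fun i _ => add_e hp hK cs i

theorem eS_two_pow (j : Fin l) (u : ↥(D.group K)) : eS hp cs (2 ^ (j : ℕ)) u = e hp cs j u := by
  have h1 : Finset.univ.filter (fun i : Fin l => (2 ^ (j : ℕ)).testBit i = true) = {j} := by
    ext i
    simp only [Finset.mem_filter, Finset.mem_univ, true_and, Nat.testBit_two_pow, decide_eq_true_eq,
      Finset.mem_singleton, Fin.ext_iff]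
    exact eq_comm
  unfold eS
  rw [h1, Finset.sum_singleton]

theorem eS_or {S : ℕ} {j : Fin l} (hS : S.testBit j = false) (u : ↥(D.group K)) :
    eS hp cs (S ||| 2 ^ (j : ℕ)) u = eS hp cs S u + e hp cs j u := by
  classical
  have h1 : Finset.univ.filter (fun i : Fin l => (S ||| 2 ^ (j : ℕ)).testBit i = true) =
      insert j (Finset.univ.filter (fun i : Fin l => S.testBit i = true)) := by
    ext i
    simp only [Finset.mem_filter, Finset.mem_univ, true_and, Nat.testBit_or, Nat.testBit_two_pow, Bool.or_eq_true,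
      decide_eq_true_eq, Finset.mem_insert, Fin.ext_iff]
    constructor
    · rintro (h | h)
      · exact Or.inr h
      · exact Or.inl h.symm
    · rintro (h | h)
      · exact Or.inr h.symm
      · exact Or.inl h
  unfold eS
  rw [h1, Finset.sum_insert (by simp [hS]), add_comm]

/-- the mask annihilates `V` -/
def Ann (H : Subgroup ↥(D.group K)) (S : ℕ) : Prop := ∀ v ∈ H, v ∈ UU hp (K := K) cs → eS hp cs S v = 0

include hK in
/-- **Descent.** -/
theorem Ann.descend (h1 : chk1 D l = true) {nb : List ℕ} (hnb : chkNb D l nb = true) {H : Subgroup ↥(D.group K)}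
    (hmul : ∀ g : ↥(D.group K), ∃ u ∈ UU hp cs, ∃ x ∈ H, g = u * x) {S : ℕ} (hS : Ann hp cs H S) (j : Fin l) :
    Ann hp cs H (S &&& nb.getD j 0) ∨ Ann hp cs H ((S &&& nb.getD j 0) ||| 2 ^ (j : ℕ)) := by
  have h2 := List.all_eq_true.1 hnb j (List.mem_range.2 j.2)
  rw [Bool.and_eq_true] at h2
  have hnb1 : ∀ i : Fin l, adj D i j = (nb.getD j 0).testBit i := by
    intro i
    have h3 := List.all_eq_true.1 h2.2 i (List.mem_range.2 i.2)
    exact beq_iff_eq.1 h3
  have hadd := add_eS hp hK cs (S &&& nb.getD j 0)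
  have hej := add_e hp hK cs j
  have hj := RootVec.simple_lt hp.checked (lt_rank hp j)
  have hxU : ex hp (D.simple j) (1 : K) ∈ UU hp (K := K) cs := ex_mem_UU hp cs hj (pos_simple hp j) 1
  have hnN := nc_normalizer hp (K := K) cs j
  have hxN := UU_le_normalizer hp (K := K) cs j hxU
  -- vanishing on `V ⊓ Q_j`
  have key : ∀ v ∈ H, v ∈ QQ hp (K := K) cs j → eS hp cs (S &&& nb.getD j 0) v = 0 := by
    intro v hv hvQ
    have e1 := pull hmul (add_eS hp hK cs S) (QQ_le hp cs j) (UQ hp cs j) hS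
      (p := nc hp K j * ex hp (D.simple j) 1) (fun a ha => (mem_normalizer_iff.1 (mul_mem hnN hxN) a).1 ha) hv hvQ
    have e2 := pull hmul (add_eS hp hK cs S) (QQ_le hp cs j) (UQ hp cs j) hS
      (p := nc hp K j) (fun a ha => (mem_normalizer_iff.1 hnN a).1 ha) hv hvQ
    have e3 : ∑ i ∈ Finset.univ.filter (fun i : Fin l => S.testBit i = true),
        (e hp cs i ((nc hp K j * ex hp (D.simple j) 1) * v * (nc hp K j * ex hp (D.simple j) 1)⁻¹) +
        e hp cs i (nc hp K j * v * (nc hp K j)⁻¹) + (if adj D i j then e hp cs i v else 0)) = 0 :=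
      Finset.sum_eq_zero fun i _ => ident hp hK cs h1 i j v hvQ
    rw [Finset.sum_add_distrib, Finset.sum_add_distrib] at e3
    change eS hp cs S _ + eS hp cs S _ + _ = 0 at e3
    rw [e1, e2, zero_add, zero_add, ← Finset.sum_filter, Finset.filter_filter] at e3
    unfold eS
    rw [← e3]
    refine Finset.sum_congr ?_ fun _ _ => rfl
    ext i
    simp only [Finset.mem_filter, Finset.mem_univ, true_and, Nat.testBit_and, Bool.and_eq_true, hnb1]
  by_cases hA : Ann hp cs H (S &&& nb.getD j 0)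
  · exact Or.inl hA
  right
  unfold Ann at hA
  push Not at hA
  obtain ⟨v0, hv0, hv0U, h2'⟩ := hA
  have hone : ∀ x : ZMod 2, x ≠ 0 → x = 1 := by decide
  have h3 := hone _ h2'
  have hjj : (S &&& nb.getD j 0).testBit j = false := by
    rw [Nat.testBit_and, Bool.and_eq_false_iff]
    right
    simpa using h2.1
  have h4 : e hp cs j v0 = 1 := by
    refine hone _ fun h5 => h2' (key v0 hv0 ((e_zero_iff hp cs).1 h5))
  intro v hv hvU
  rw [eS_or hp cs hjj]
  by_cases h5 : e hp cs j v = 0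
  · rw [h5, key v hv ((e_zero_iff hp cs).1 h5), add_zero]
  · have h6 := hone _ h5
    have h7 : e hp cs j (v * v0) = 0 := by
      rw [hej _ hvU _ hv0U, h6, h4]; decide
    have h8 := key _ (mul_mem hv hv0) ((e_zero_iff hp cs).1 h7)
    rw [hadd _ hvU _ hv0U, h3] at h8
    rw [h6]; exact h8

include hK in
/-- all the masks are bad in the covered case -/
theorem bad_all (h1 : chk1 D l = true) (h3 : chk3 D l = true) {nb : List ℕ} (hnb : chkNb D l nb = true) {B0 B1 B2 : ℕ}
    (hB0 : chkB0 D l B0 = true) (hB1 : chkB l nb B0 B1 = true) (hB2 : chkB l nb B1 B2 = true)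
    (hL : chkL l B2 = true) {H : Subgroup ↥(D.group K)}
    (hmul : ∀ g : ↥(D.group K), ∃ u ∈ UU hp cs, ∃ x ∈ H, g = u * x)
    (hcov : ∀ j : Fin l, ∃ v ∈ H, v ∈ UU hp cs ∧ e hp cs j v = 1) :
    ∀ S < 2 ^ l, S ≠ 0 → ¬ Ann hp cs H S := by
  have hstep : ∀ S j, j < l → ¬ Ann hp cs H (S &&& nb.getD j 0) → ¬ Ann hp cs H ((S &&& nb.getD j 0) ||| 2 ^ j) →
      ¬ Ann hp cs H S := by
    intro S j hj h4 h5 h6
    rcases h6.descend hp hK cs h1 hnb hmul ⟨j, hj⟩ with h | h
    · exact h4 h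
    · exact h5 h
  have h0 : ∀ S < 2 ^ l, B0.testBit S = true → ¬ Ann hp cs H S := by
    intro S hS hB hA
    have h4 := List.all_eq_true.1 hB0 S (List.mem_range.2 hS)
    rw [hB] at h4
    simp only [Bool.not_true, Bool.false_or, Bool.or_eq_true, List.any_eq_true, List.mem_range, Bool.and_eq_true,
      beq_iff_eq, bne_iff_ne, ne_eq] at h4
    rcases h4 with ⟨j, hj, rfl⟩ | ⟨j, hj, k, hk, ⟨hjk, hadj⟩, rfl⟩
    · obtain ⟨v, hv, hvU, h5⟩ := hcov ⟨j, hj⟩
      have h6 := hA v hv hvU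
      rw [eS_two_pow hp cs ⟨j, hj⟩, h5] at h6
      exact absurd h6 (by decide)
    · obtain ⟨⟨v, hv, hvU, h5, h6⟩, -⟩ := edge hp hK cs h3 hmul (j := ⟨j, hj⟩) (k := ⟨k, hk⟩) hadj (hcov ⟨j, hj⟩)
      have h7 := hA v hv hvU
      have h8 : (2 ^ j).testBit k = false := by
        rw [Nat.testBit_two_pow]; simpa using hjk
      rw [eS_or hp cs (j := ⟨k, hk⟩) h8, eS_two_pow hp cs ⟨j, hj⟩, h5, h6] at h7
      exact absurd h7 (by decide)
  have h4 := next hB2 hstep (next hB1 hstep h0)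
  intro S hS hS0
  refine h4 S hS ?_
  have h5 := List.all_eq_true.1 hL S (List.mem_range.2 hS)
  simpa [hS0] using h5

include hK in
/-- everything is covered as soon as something is -/
theorem cov_all (h3 : chk3 D l = true)
    (hconn : ∀ J : Set (Fin l), J.Nonempty → Jᶜ.Nonempty → ∃ i ∈ J, ∃ j ∈ Jᶜ, adj D i j = true)
    {H : Subgroup ↥(D.group K)} (hmul : ∀ g : ↥(D.group K), ∃ u ∈ UU hp cs, ∃ x ∈ H, g = u * x)
    (hcov : ∃ j : Fin l, ∃ v ∈ H, v ∈ UU hp cs ∧ e hp cs j v = 1) :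
    ∀ j : Fin l, ∃ v ∈ H, v ∈ UU hp cs ∧ e hp cs j v = 1 := by
  by_contra hcon
  push Not at hcon
  obtain ⟨k, hk⟩ := hcon
  obtain ⟨i, hi, j, hj, hadj⟩ := hconn {j | ∃ v ∈ H, v ∈ UU hp (K := K) cs ∧ e hp cs j v = 1} hcov
    ⟨k, fun ⟨v, hv, hvU, h1⟩ => hk v hv hvU h1⟩
  obtain ⟨-, v, hv, hvU, -, h4⟩ := edge hp hK cs h3 hmul hadj hi
  exact hj ⟨v, hv, hvU, h4⟩

include hK in
/-- an additive function on `U` is given by its mask -/
theorem exists_mask (h2 : chk2 D l = true) {χ : ↥(D.group K) → ZMod 2} (hχ : Add χ (UU hp (K := K) cs)) :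
    ∃ S < 2 ^ l, ∀ u ∈ UU hp (K := K) cs, χ u = eS hp cs S u := by
  classical
  have z2 : ∀ x y : ZMod 2, x + y = 0 → x = y := by decide
  let f : Fin l → Bool := fun i => decide (χ (ex hp (D.simple i) 1) = 1)
  have hbit : ∀ i : Fin l, (Nat.ofBits f).testBit i = f i := fun i => by
    rw [Nat.testBit_ofBits_lt f i i.2]
  refine ⟨Nat.ofBits f, Nat.ofBits_lt_two_pow f, fun u hu => z2 _ _ ?_⟩
  have hA := hχ.add (add_eS hp hK cs (Nat.ofBits f))
  refine hA.zero_of_gen (fun x hx u hu => ?_) u hu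
  obtain ⟨hx, h0⟩ := hx
  obtain ⟨r, hr, rfl⟩ := (isRoot_iff hp cs x).1 hx
  rcases mem_XX hp hK hr hu with rfl | rfl
  · exact hA.one
  have hpos : D.neg r < r := (Card.nonneg_iff hp hr).1 h0
  show χ (ex hp r 1) + eS hp cs (Nat.ofBits f) (ex hp r 1) = 0
  by_cases hs : ∃ i : Fin l, r = D.simple i
  · obtain ⟨i, rfl⟩ := hs
    have h5 : eS hp cs (Nat.ofBits f) (ex hp (D.simple i) (1 : K)) = if f i = true then 1 else 0 := by
      unfold eS
      have h6 : ∀ j : Fin l, e hp cs j (ex hp (D.simple i) (1 : K)) = if j = i then 1 else 0 := by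
        intro j
        rw [e_ex hp cs hr hpos]
        refine if_congr ?_ rfl rfl
        exact ⟨fun h => (simple_inj hp h).symm, fun h => by rw [h]⟩
      simp only [h6]
      rw [Finset.sum_ite_eq']
      refine if_congr ?_ rfl rfl
      simp [hbit]
    rw [h5]
    by_cases h7 : χ (ex hp (D.simple i) 1) = 1
    · rw [if_pos (by simp [f, h7]), h7]; decide
    · rw [if_neg (by simp [f, h7]), add_zero]
      have hone : ∀ x : ZMod 2, x ≠ 1 → x = 0 := by decide
      exact hone _ h7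
  · have h5 : eS hp cs (Nat.ofBits f) (ex hp r (1 : K)) = 0 := by
      unfold eS
      refine Finset.sum_eq_zero fun j _ => ?_
      rw [e_ex hp cs hr hpos, if_neg fun h => hs ⟨j, h⟩]
    rw [h5, add_zero]
    have h6 := List.all_eq_true.1 h2 r (List.mem_range.2 hr)
    simp only [hpos, decide_true, Bool.not_true, Bool.false_or, Bool.or_eq_true, beq_iff_eq, List.any_eq_true,
      List.mem_range, Bool.and_eq_true, bne_iff_ne, ne_eq, decide_eq_true_eq] at h6
    rcases h6 with ⟨i, hi, h6⟩ | ⟨j, hj, ⟨h7, h8⟩, h9⟩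
    · exact absurd ⟨⟨i, hi⟩, h6⟩ hs
    · split at h9
      · rename_i m c hct
        simp only [Bool.and_eq_true, beq_iff_eq] at h9
        obtain ⟨rfl, hc1⟩ := h9
        have hlr := reflectRoot_lt hp.inList (lt_rank hp ⟨j, hj⟩) hr
        have hjs := RootVec.simple_lt hp.checked (lt_rank hp ⟨j, hj⟩)
        have hxU : ex hp (D.simple j) (1 : K) ∈ UU hp (K := K) cs := ex_mem_UU hp cs hjs (pos_simple hp ⟨j, hj⟩) 1
        have hyU : ex hp (D.reflectRoot j m) (1 : K) ∈ UU hp (K := K) cs := ex_mem_UU hp cs hlr h7 1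
        have e1 := comm_simple hp (K := K) (j := ⟨j, hj⟩) hlr h7 h8 hct hc1
        have e2 := congrArg χ e1
        rw [hχ _ hxU _ hyU, hχ _ (mul_mem hyU hxU) _ (ex_mem_UU hp cs hr hpos 1), hχ _ hyU _ hxU] at e2
        have z3 : ∀ x y z : ZMod 2, x + y = y + x + z → z = 0 := by decide
        exact z3 _ _ _ e2
      · exact absurd h9 (by decide)

include hK in
/-- **The covered case.** -/
theorem covered (h1 : chk1 D l = true) (h2 : chk2 D l = true) (h3 : chk3 D l = true) {nb : List ℕ}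
    (hnb : chkNb D l nb = true) {B0 B1 B2 : ℕ}
    (hB0 : chkB0 D l B0 = true) (hB1 : chkB l nb B0 B1 = true) (hB2 : chkB l nb B1 B2 = true)
    (hL : chkL l B2 = true)
    (hconn : ∀ J : Set (Fin l), J.Nonempty → Jᶜ.Nonempty → ∃ i ∈ J, ∃ j ∈ Jᶜ, adj D i j = true)
    {H : Subgroup ↥(D.group K)} (hmul : ∀ g : ↥(D.group K), ∃ u ∈ UU hp cs, ∃ x ∈ H, g = u * x)
    (hcov : ∃ j : Fin l, ∃ v ∈ H, v ∈ UU hp cs ∧ e hp cs j v = 1) : H = ⊤ := by
  have : Fact (Nat.Prime 2) := ⟨Nat.prime_two⟩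
  have R := rgd (K := K) hp cs 2
  have hbad := bad_all hp hK cs h1 h3 hnb hB0 hB1 hB2 hL hmul (cov_all hp hK cs h3 hconn hmul hcov)
  by_cases hVU : H ⊓ UU hp (K := K) cs = UU hp cs
  · rw [eq_top_iff]
    intro g _
    obtain ⟨u, hu, x, hx, rfl⟩ := hmul g
    exact mul_mem (inf_eq_right.1 hVU hu) hx
  · exfalso
    obtain ⟨χ, hχ, hV, u, hu, hu1⟩ := exists_add (R.isPGroup_Upos) inf_le_right hVU
    obtain ⟨S, hS, h4⟩ := exists_mask hp hK cs h2 hχ
    refine hbad S hS ?_ fun v hv hvU => ?_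
    · rintro rfl
      have h5 := h4 u hu
      rw [hu1] at h5
      unfold eS at h5
      simp at h5
    · rw [← h4 v hvU]
      exact hV v ⟨hv, hvU⟩

end Gen

end Cfsg.Agent.H225.PPow.Two
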