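import Cfsg.Agent.H225.PPow.TwoG
import Cfsg.Agent.Tits.ExtAux

/-!
# Subgroups of 2-power index of the simply laced Chevalley groups over the field with two elements, IV (helper225)
-/

set_option autoImplicit false
set_option linter.unusedSectionVars false

namespace Cfsg.Agent.H225.PPow.Two

open CoxeterSystem Subgroup Cfsg Cfsg.Lie Cfsg.Lie.ChevalleyDatum
open Cfsg.Agent.ChevalleyStructure Cfsg.Agent.ChevalleyStructure.Elts Cfsg.Agent.ChevalleyStructure.CoxeterGeom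
  Cfsg.Agent.ChevalleyStructure.CoxeterGeomTypes Cfsg.Agent.ChevalleyStructure.NPerm
  Cfsg.Agent.ChevalleyStructure.RootVec Cfsg.Agent.ChevalleyStructure.RootVecTab
open Cfsg.Agent.Tits.Roots Cfsg.Agent.Tits.Core Cfsg.Agent.Tits.RootComb Cfsg.Agent.Nodes.Comb
  Cfsg.Agent.Nodes.Reps Cfsg.Agent.Nodes.BNOf Cfsg.Agent.Nodes.StabComb Cfsg.Agent.Nodes.Bruhat
  Cfsg.Agent.Nodes.LeviDec Cfsg.Agent.Nodes.NormalForm Cfsg.Agent.Nodes.RGDChev Cfsg.Agent.Nodes.OppDec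
open Cfsg.Agent.KFacts.RgdChevCoord Cfsg.Agent.H225.PPow Cfsg.Agent.BpExc.TorChev
open Cfsg.Agent.KFacts.SLRow.Def

universe u

/-- the order of a complement -/
theorem card_of_mul {Y : Type*} [Group Y] [Finite Y] {H U P : Subgroup Y} (hmul : ∀ g : Y, ∃ u ∈ U, ∃ x ∈ H, g = u * x)
    (hUP : U ≤ P) (hb : H ⊓ U = ⊥) : Nat.card ↥P = Nat.card ↥U * Nat.card ↥(H ⊓ P : Subgroup Y) := by
  rw [← Nat.card_prod]
  let f : ↥U × ↥(H ⊓ P : Subgroup Y) → ↥P := fun x => ⟨x.1 * x.2, mul_mem (hUP x.1.2) x.2.2.2⟩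
  refine (Nat.card_congr (Equiv.ofBijective f ⟨?_, ?_⟩)).symm
  · rintro ⟨⟨u, hu⟩, ⟨x, hx⟩⟩ ⟨⟨u', hu'⟩, ⟨x', hx'⟩⟩ e
    have e1 : u * x = u' * x' := congrArg Subtype.val e
    have e2 : u'⁻¹ * u = x' * x⁻¹ := by
      calc u'⁻¹ * u = u'⁻¹ * (u * x) * x⁻¹ := by group
        _ = _ := by rw [e1]; group
    have h1 : u'⁻¹ * u ∈ H ⊓ U := Subgroup.mem_inf.2
      ⟨by rw [e2]; exact mul_mem hx'.1 (inv_mem hx.1), mul_mem (inv_mem hu') hu⟩
    rw [hb, Subgroup.mem_bot] at h1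
    have h2 : u = u' := (inv_mul_eq_one.1 h1).symm
    rw [h1] at e2
    have h3 : x = x' := (mul_inv_eq_one.1 e2.symm).symm
    subst h2; subst h3; rfl
  · rintro ⟨g, hg⟩
    obtain ⟨u, hu, x, hx, rfl⟩ := hmul g
    have h1 : x ∈ P := by
      have := mul_mem (inv_mem (hUP hu)) hg
      rwa [inv_mul_cancel_left] at this
    exact ⟨(⟨u, hu⟩, ⟨x, hx, h1⟩), rfl⟩

section Gen

variable {D : ChevalleyDatum} {l : ℕ} {M : CoxeterMatrix (Fin l)} (hp : IsType D l M) {K : Type u} [Field K]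
  [Finite K] (hK : Nat.card K = 2) {W : Type*} [Group W] [Finite W] (cs : CoxeterSystem M W) [CharP K 2]

/-- the parabolic subgroup of a list -/
abbrev PP (J : List (Fin l)) : Subgroup ↥(D.group K) := PJ cs hp.isCartan (TT D K) (XX D l K) {i | i ∈ J}

theorem UU_le_PP (J : List (Fin l)) : UU hp cs ≤ PP hp (K := K) cs J := le_trans RGD.U_le_B B_le_PJ

theorem mem_J_of {J : List (Fin l)} {i : Fin l} (h : nc hp K i ∈ PP hp (K := K) cs J) : i ∈ J := by
  have : Fact (Nat.Prime 2) := ⟨Nat.prime_two⟩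
  have R := rgd (K := K) hp cs 2
  have h0 : Cell R.nsys cs hp.isCartan (XX D l K) (cs.simple i) (nc hp K i) := cell_of_rp (rp_simple cs R.nsys i)
  have h1 : cs.simple i ∈ WJ cs ({i | i ∈ J} : Set (Fin l)) := (cell_mem_PJ_iff R h0).1 h
  have h2 : Function.Injective cs.simple := Cfsg.Agent.Tits.Ext.simple_injective
  have h3 : i ∈ ({i | i ∈ J} : Set (Fin l)) := Cfsg.Agent.Tits.Ext.mem_of_simple_mem_WJ h2 h1
  exact h3

theorem nc_mem_PP {J : List (Fin l)} {i : Fin l} (h : i ∈ J) : nc hp K i ∈ PP hp (K := K) cs J := by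
  have : Fact (Nat.Prime 2) := ⟨Nat.prime_two⟩
  have R := rgd (K := K) hp cs 2
  exact LJ_le_PJ (n_mem_LJ R h)

theorem PP_mono {J J' : List (Fin l)} (h : ∀ i ∈ J, i ∈ J') : PP hp (K := K) cs J ≤ PP hp (K := K) cs J' := by
  have : Fact (Nat.Prime 2) := ⟨Nat.prime_two⟩
  have R := rgd (K := K) hp cs 2
  refine sup_le ((LJ_mono fun i hi => h i hi).trans LJ_le_PJ) ?_
  exact (VJ_le_U _).trans (UU_le_PP hp cs J')

include hK in
theorem card_H {J : List (Fin l)} {L : List (List (Fin l))} {N : ℕ} (hc : Card.chk D J L = true)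
    (hN : (L.map fun ω => 2 ^ Card.inv D ω).sum = N) {H : Subgroup ↥(D.group K)}
    (hmul : ∀ g : ↥(D.group K), ∃ u ∈ UU hp cs, ∃ x ∈ H, g = u * x) (hb : H ⊓ UU hp cs = ⊥) :
    Nat.card ↥(H ⊓ PP hp cs J : Subgroup ↥(D.group K)) = N := by
  have : Fact (Nat.Prime 2) := ⟨Nat.prime_two⟩
  have R := rgd (K := K) hp cs 2
  have h1 := Card.card_PJ_eq hp cs R (fun x hx => by
    have C := (coords (K := K) hp cs 2).coord x hx
    rw [← hK]
    symm
    refine Nat.card_congr (Equiv.ofBijective (fun a : K => (⟨xc hp x a, (C.mem _).2 ⟨a, rfl⟩⟩ : ↥(XX D l K x)))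
      ⟨fun a b hab => C.inj (congrArg Subtype.val hab), fun y => ?_⟩)
    obtain ⟨a, ha⟩ := (C.mem y.1).1 y.2
    exact ⟨a, Subtype.ext ha⟩) (TT_bot hp hK) hc
  have h2 := card_of_mul hmul (UU_le_PP hp cs J) hb
  rw [hN] at h1
  have h3 : Nat.card ↥(UU hp cs : Subgroup ↥(D.group K)) ≠ 0 := Nat.card_pos.ne'
  exact Nat.eq_of_mul_eq_mul_left (Nat.pos_of_ne_zero h3) (h2.symm.trans h1)

/-- different parabolic subgroups meet `H` differently -/
theorem ne_of_mem {J J' : List (Fin l)} {i : Fin l} (hi : i ∈ J) (hi' : i ∉ J') {H : Subgroup ↥(D.group K)}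
    (hmul : ∀ g : ↥(D.group K), ∃ u ∈ UU hp cs, ∃ x ∈ H, g = u * x) :
    H ⊓ PP hp cs J ≠ H ⊓ PP hp cs J' := by
  intro e
  apply hi'
  obtain ⟨u, hu, x, hx, h1⟩ := hmul (nc hp K i)
  have h2 : x ∈ H ⊓ PP hp cs J := by
    refine Subgroup.mem_inf.2 ⟨hx, ?_⟩
    have h3 : x = u⁻¹ * nc hp K i := by rw [h1]; group
    rw [h3]
    exact mul_mem (inv_mem (UU_le_PP hp cs J hu)) (nc_mem_PP hp cs hi)
  rw [e] at h2
  refine mem_J_of hp (K := K) cs ?_
  rw [h1]
  exact mul_mem (UU_le_PP hp cs J' hu) h2.2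

/-- the tables of the orders -/
structure Ord (D : ChevalleyDatum) (l : ℕ) (a b c : Fin l) (La Lb Lab Lbc Lac Labc : List (List (Fin l))) : Prop where
  hab : a ≠ b
  hac : a ≠ c
  hbc : b ≠ c
  ca : Card.chk D [a] La = true
  na : (La.map fun ω => 2 ^ Card.inv D ω).sum = 3
  cb : Card.chk D [b] Lb = true
  nb : (Lb.map fun ω => 2 ^ Card.inv D ω).sum = 3
  cab : Card.chk D [a, b] Lab = true
  nab : (Lab.map fun ω => 2 ^ Card.inv D ω).sum = 21
  cbc : Card.chk D [b, c] Lbc = true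
  nbc : (Lbc.map fun ω => 2 ^ Card.inv D ω).sum = 21
  cac : Card.chk D [a, c] Lac = true
  nac : (Lac.map fun ω => 2 ^ Card.inv D ω).sum = 9
  cabc : Card.chk D [a, b, c] Labc = true
  nabc : (Labc.map fun ω => 2 ^ Card.inv D ω).sum = 315

include hK in
/-- `V = 1` is impossible -/
theorem not_bot {a b c : Fin l} {La Lb Lab Lbc Lac Labc : List (List (Fin l))} (O : Ord D l a b c La Lb Lab Lbc Lac Labc)
    {H : Subgroup ↥(D.group K)} (hmul : ∀ g : ↥(D.group K), ∃ u ∈ UU hp cs, ∃ x ∈ H, g = u * x)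
    (hb : H ⊓ UU hp cs = ⊥) : False := by
  have card_sub : ∀ {P Q : Subgroup ↥(D.group K)}, P ≤ Q → Nat.card ↥((H ⊓ P).subgroupOf (H ⊓ Q)) = Nat.card ↥(H ⊓ P : Subgroup _) :=
    fun h => Nat.card_congr (Subgroup.subgroupOfEquivOfLe (inf_le_inf_left H h)).toEquiv
  have ia := card_H hp hK cs O.ca O.na hmul hb
  have ib := card_H hp hK cs O.cb O.nb hmul hb
  have iab := card_H hp hK cs O.cab O.nab hmul hb
  have ibc := card_H hp hK cs O.cbc O.nbc hmul hb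
  have iac := card_H hp hK cs O.cac O.nac hmul hb
  have iabc := card_H hp hK cs O.cabc O.nabc hmul hb
  have mab : PP hp (K := K) cs [a, b] ≤ PP hp cs [a, b, c] := PP_mono hp cs (by simp)
  have mbc : PP hp (K := K) cs [b, c] ≤ PP hp cs [a, b, c] := PP_mono hp cs (by simp)
  have mac : PP hp (K := K) cs [a, c] ≤ PP hp cs [a, b, c] := PP_mono hp cs (by simp)
  have ma1 : PP hp (K := K) cs [a] ≤ PP hp cs [a, b] := PP_mono hp cs (by simp)
  have ma2 : PP hp (K := K) cs [a] ≤ PP hp cs [a, c] := PP_mono hp cs (by simp)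
  have mb1 : PP hp (K := K) cs [b] ≤ PP hp cs [a, b] := PP_mono hp cs (by simp)
  have mb2 : PP hp (K := K) cs [b] ≤ PP hp cs [b, c] := PP_mono hp cs (by simp)
  -- `(H ∩ P_ab) ∩ (H ∩ P_bc) = H ∩ P_b`
  have e1 : (H ⊓ PP hp cs [a, b]) ⊓ (H ⊓ PP hp cs [b, c]) = H ⊓ PP hp cs [b] := by
    symm
    refine Subgroup.eq_of_le_of_card_ge (le_inf (inf_le_inf_left _ mb1) (inf_le_inf_left _ mb2)) ?_
    have h1 : Nat.card ↥((H ⊓ PP hp cs [a, b]) ⊓ (H ⊓ PP hp cs [b, c]) : Subgroup ↥(D.group K)) ∣ 21 := by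
      rw [← iab]; exact Subgroup.card_dvd_of_le inf_le_left
    have h2 : Nat.card ↥((H ⊓ PP hp cs [a, b]) ⊓ (H ⊓ PP hp cs [b, c]) : Subgroup ↥(D.group K)) ≠ 21 := by
      intro h3
      have h4 : (H ⊓ PP hp cs [a, b]) ⊓ (H ⊓ PP hp cs [b, c]) = H ⊓ PP hp cs [a, b] :=
        Subgroup.eq_of_le_of_card_ge inf_le_left (by rw [iab, h3])
      have h5 : (H ⊓ PP hp cs [a, b]) ⊓ (H ⊓ PP hp cs [b, c]) = H ⊓ PP hp cs [b, c] :=
        Subgroup.eq_of_le_of_card_ge inf_le_right (by rw [ibc, h3])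
      exact ne_of_mem hp cs (J := [a, b]) (J' := [b, c]) (i := a) (by simp) (by simp [O.hab, O.hac]) hmul
        (h4.symm.trans h5)
    have h3 : Nat.card ↥(H ⊓ PP hp cs [b] : Subgroup ↥(D.group K)) ∣
        Nat.card ↥((H ⊓ PP hp cs [a, b]) ⊓ (H ⊓ PP hp cs [b, c]) : Subgroup ↥(D.group K)) :=
      Subgroup.card_dvd_of_le (le_inf (inf_le_inf_left _ mb1) (inf_le_inf_left _ mb2))
    rw [ib] at h3 ⊢
    generalize Nat.card ↥((H ⊓ PP hp cs [a, b]) ⊓ (H ⊓ PP hp cs [b, c]) : Subgroup ↥(D.group K)) = m at h1 h2 h3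
    obtain ⟨k, rfl⟩ := h3
    have h4 : k ∣ 7 := by
      have : 3 * k ∣ 3 * 7 := h1
      exact Nat.dvd_of_mul_dvd_mul_left (by norm_num) this
    rcases (Nat.dvd_prime (by norm_num)).1 h4 with rfl | rfl
    · norm_num
    · exact absurd rfl h2
  have e2 : (H ⊓ PP hp cs [a, b]) ⊓ (H ⊓ PP hp cs [a, c]) = H ⊓ PP hp cs [a] := by
    symm
    refine Subgroup.eq_of_le_of_card_ge (le_inf (inf_le_inf_left _ ma1) (inf_le_inf_left _ ma2)) ?_
    rw [ia]
    have h1 : Nat.card ↥((H ⊓ PP hp cs [a, b]) ⊓ (H ⊓ PP hp cs [a, c]) : Subgroup ↥(D.group K)) ∣ 21 := by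
      rw [← iab]; exact Subgroup.card_dvd_of_le inf_le_left
    have h2 : Nat.card ↥((H ⊓ PP hp cs [a, b]) ⊓ (H ⊓ PP hp cs [a, c]) : Subgroup ↥(D.group K)) ∣ 9 := by
      rw [← iac]; exact Subgroup.card_dvd_of_le inf_le_right
    exact Nat.le_of_dvd (by norm_num) (by simpa using Nat.dvd_gcd h1 h2)
  have hne : H ⊓ PP hp cs [b] ≠ H ⊓ PP hp cs [a] :=
    ne_of_mem hp cs (i := b) (by simp) (by simp [O.hab.symm]) hmul
  have inf_sub : ∀ A B C : Subgroup ↥(D.group K), A.subgroupOf C ⊓ B.subgroupOf C = (A ⊓ B).subgroupOf C :=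
    fun A B C => (Subgroup.comap_inf A B C.subtype).symm
  refine no315 (G := ↥(H ⊓ PP hp cs [a, b, c] : Subgroup ↥(D.group K))) iabc
    (A := (H ⊓ PP hp cs [a, b]).subgroupOf _) (B := (H ⊓ PP hp cs [b, c]).subgroupOf _)
    (E := (H ⊓ PP hp cs [a, c]).subgroupOf _) ((card_sub mab).trans iab) ((card_sub mbc).trans ibc)
    ((card_sub mac).trans iac) ?_ ?_ ?_
  · rw [inf_sub, e1, card_sub (mb1.trans mab), ib]
  · rw [inf_sub, e2, card_sub (ma1.trans mab), ia]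
  · rw [inf_sub, inf_sub, e1, e2]
    intro h1
    apply hne
    have h2 := congrArg (Subgroup.map (H ⊓ PP hp cs [a, b, c]).subtype) h1
    rwa [Subgroup.subgroupOf_map_subtype, Subgroup.subgroupOf_map_subtype,
      inf_eq_left.2 (inf_le_inf_left _ (mb1.trans mab)), inf_eq_left.2 (inf_le_inf_left _ (ma1.trans mab))] at h2

include hp hK in
/-- **The theorem over the field with two elements.** -/
theorem good_two (hsim : IsSimpleGroup ↥(D.group K)) (h1 : chk1 D l = true) (h2 : chk2 D l = true)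
    (h3 : chk3 D l = true) {nb : List ℕ}
    (hnb : chkNb D l nb = true) {B0 B1 B2 : ℕ}
    (hB0 : chkB0 D l B0 = true) (hB1 : chkB l nb B0 B1 = true) (hB2 : chkB l nb B1 B2 = true)
    (hL : chkL l B2 = true)
    (hconn : ∀ J : Set (Fin l), J.Nonempty → Jᶜ.Nonempty → ∃ i ∈ J, ∃ j ∈ Jᶜ, adj D i j = true)
    {a b c : Fin l} {La Lb Lab Lbc Lac Labc : List (List (Fin l))} (O : Ord D l a b c La Lb Lab Lbc Lac Labc) :
    H408.Core.Good 2 ↥(D.group K) := by
  have hone : ∀ x : ZMod 2, x ≠ 1 → x = 0 := by decide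
  have : Fact (Nat.Prime 2) := ⟨Nat.prime_two⟩
  let cs := M.toCoxeterSystem
  have hW : Finite M.Group := finite_W hp cs
  have R := rgd (K := K) hp cs 2
  intro H k hH
  have C : Ctx R H k := ⟨GG_top hp cs, hH⟩
  have hmul : ∀ g : ↥(D.group K), ∃ u ∈ UU hp cs, ∃ x ∈ H, g = u * x := C.exists_mul
  by_cases hcov : ∃ j : Fin l, ∃ v ∈ H, v ∈ UU hp cs ∧ e hp cs j v = 1
  · exact covered hp hK cs h1 h2 h3 hnb hB0 hB1 hB2 hL hconn hmul hcov
  · exfalso
    push Not at hcov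
    refine not_bot hp hK cs O hmul ?_
    have hUtop : UU hp (K := K) cs ≠ ⊤ := by
      intro h4
      have h5 : nc hp K a ∈ PP hp (K := K) cs [] := UU_le_PP hp cs [] (by rw [h4]; exact mem_top _)
      exact absurd (mem_J_of hp cs h5) (by simp)
    refine bot_of_uncov hUtop hmul (fun j => QQ hp (K := K) cs j) (fun j => nc hp K j) ?_
      (fun j => QQ_le hp cs j) (fun j => UQ hp cs j)
      (fun j x hx => (mem_normalizer_iff.1 (nc_normalizer hp cs j) x).1 hx) (fun j x hx => ?_) (fun j v hv => ?_)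
    · refine Cfsg.Agent.KFacts.RgdAutFacts.GG_le R C.hG ?_ fun i => subset_closure (Or.inr ⟨i, rfl⟩)
      refine sup_le ?_ fun u hu => subset_closure (Or.inl hu)
      intro t ht
      have : TT D K = ⊥ := TT_bot hp hK
      have h6 : t = 1 := by
        have h7 : t ∈ TT D K := ht
        rwa [this, Subgroup.mem_bot] at h7
      rw [h6]; exact one_mem _
    · have := (mem_normalizer_iff.1 (inv_mem (nc_normalizer hp (K := K) cs j)) x).1 hx
      rwa [inv_inv] at this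
    · exact (e_zero_iff hp cs).1 (hone _ (hcov j v hv.1 hv.2))

end Gen

end Cfsg.Agent.H225.PPow.Two
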